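import Mathlib
import Cfsg.Agent.Lib.Helper1.CoprimeSylow2
import Cfsg.Agent.Lib.Helper1.Averaging

set_option autoImplicit false
set_option linter.style.haveILetI false
open Pointwise
open scoped commutatorElement

namespace Cfsg.Agent.Lib.Helper1

universe u

section IndexP

variable {G : Type u} [Group G]

/-- The natural map `A ⧸ (B ⊓ A) → K ⧸ (B ⊓ K)` on left coset spaces, for `A ≤ K`. -/
def relQuotMap {A K : Subgroup G} (hA : A ≤ K) (B : Subgroup G) :
    A ⧸ B.subgroupOf A → K ⧸ B.subgroupOf K :=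
  Quotient.map' (fun a : A => Subgroup.inclusion hA a) (by
    intro a b hab
    rw [QuotientGroup.leftRel_apply] at hab ⊢
    exact hab)

theorem relQuotMap_injective {A K : Subgroup G} (hA : A ≤ K) (B : Subgroup G) :
    Function.Injective (relQuotMap hA B) := by
  intro x y
  refine Quotient.inductionOn₂' x y ?_
  intro a b hab
  apply Quotient.sound'
  rw [QuotientGroup.leftRel_apply]
  have h1 := Quotient.exact' hab
  rw [QuotientGroup.leftRel_apply] at h1
  exact h1

/-- Counting: if `|K : K ∩ B| ≤ |A : A ∩ B|` with `A ≤ K` then `K = A B` elementwise. -/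
theorem exists_mul_of_relIndex_le [Finite G] {A K : Subgroup G} (hA : A ≤ K) (B : Subgroup G)
    (h : B.relIndex K ≤ B.relIndex A) {k : G} (hk : k ∈ K) :
    ∃ a ∈ A, ∃ b ∈ B, k = a * b := by
  have hbij := (relQuotMap_injective hA B).bijective_of_nat_card_le h
  obtain ⟨x, hx⟩ := hbij.2 ((⟨k, hk⟩ : K) : K ⧸ B.subgroupOf K)
  induction x using Quotient.inductionOn' with
  | _ a =>
    refine ⟨a, a.2, (a : G)⁻¹ * k, ?_, by group⟩
    have h1 := Quotient.exact' hx
    rw [QuotientGroup.leftRel_apply] at h1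
    exact h1

/-- If `H ≤ centralizer A` then `A` normalises `H`. -/
theorem le_normalizer_of_le_centralizer {A H : Subgroup G}
    (h : H ≤ Subgroup.centralizer (A : Set G)) : A ≤ Subgroup.normalizer (H : Set G) := by
  intro a ha
  rw [Subgroup.mem_normalizer_iff]
  intro x
  constructor
  · intro hx
    have h1 : a * x = x * a := (Subgroup.mem_centralizer_iff.mp (h hx)) a ha
    have h2 : a * x * a⁻¹ = x := by rw [h1]; group
    rw [h2]; exact hx
  · intro hx
    have h1 : a * (a * x * a⁻¹) = (a * x * a⁻¹) * a := (Subgroup.mem_centralizer_iff.mp (h hx)) a ha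
    have h2 : a * x * a⁻¹ = x := by
      have h3 : a * x * a⁻¹ = a⁻¹ * (a * (a * x * a⁻¹)) := by group
      rw [h3, h1]; group
    rw [← h2]; exact hx

/-- Coprime action on a `p`-group whose fixed points have index `p`: `[P, A]` has order `p`. -/
theorem pgroup_commutator_card_of_index_p [Finite G] (A P : Subgroup G) (p : ℕ) [Fact p.Prime]
    (hP : IsPGroup p P) (hAP : A ≤ Subgroup.normalizer (P : Set G))
    (hcop : (Nat.card A).Coprime (Nat.card P))
    (hidx : (P ⊓ Subgroup.centralizer (A : Set G)).relIndex P = p) :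
    Nat.card (⁅P, A⁆ : Subgroup G) = p := by
  have hp : p.Prime := Fact.out
  have hsolvP : Group.IsSolvable P := by
    haveI : Group.IsNilpotent P := hP.isNilpotent
    infer_instance
  have hsolv : Group.IsSolvable A ∨ Group.IsSolvable P := Or.inr hsolvP
  obtain ⟨R, hRdef⟩ : ∃ R : Subgroup G, R = ⁅P, A⁆ := ⟨_, rfl⟩
  rw [← hRdef]
  have hRP : R ≤ P := hRdef ▸ commutator_le_of_le_normalizer hAP
  have hnorm : P ⊔ A ≤ Subgroup.normalizer (R : Set G) := hRdef ▸ commutator_normalizer hAP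
  have hAR : A ≤ Subgroup.normalizer (R : Set G) := le_sup_right.trans hnorm
  have hsup : R ⊔ (P ⊓ Subgroup.centralizer (A : Set G)) = P :=
    hRdef ▸ coprime_commutator_sup A P hAP hcop hsolv
  have hRR : ⁅R, A⁆ = R := hRdef ▸ coprime_commutator_commutator A P hAP hcop hsolv
  have hRp : IsPGroup p R := hP.to_le hRP
  have hcopR : (Nat.card A).Coprime (Nat.card R) :=
    Nat.Coprime.coprime_dvd_right (Subgroup.card_dvd_of_le hRP) hcop
  -- `P₀ = C_P(A)` is normal in `P`
  obtain ⟨P₀, hP₀def⟩ : ∃ P₀ : Subgroup G, P₀ = P ⊓ Subgroup.centralizer (A : Set G) := ⟨_, rfl⟩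
  rw [← hP₀def] at hidx hsup
  have hP₀P : P₀ ≤ P := hP₀def ▸ inf_le_left
  have hP₀C : P₀ ≤ Subgroup.centralizer (A : Set G) := hP₀def ▸ inf_le_right
  have hcardP : Nat.card P ≠ 1 := by
    intro h1
    have h2 : P₀.relIndex P ∣ Nat.card P := Subgroup.relIndex_dvd_card P₀ P
    rw [hidx, h1] at h2
    exact hp.one_lt.ne' (Nat.dvd_one.mp h2)
  have hminP : (Nat.card P).minFac = p := by
    obtain ⟨n, hn⟩ := IsPGroup.iff_card.mp hP
    have hn0 : n ≠ 0 := by
      rintro rfl
      exact hcardP (by simpa using hn)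
    rw [hn, hp.pow_minFac hn0]
  have hP₀norm : P ≤ Subgroup.normalizer (P₀ : Set G) := by
    rw [← Subgroup.normal_subgroupOf_iff_le_normalizer hP₀P]
    apply Subgroup.normal_of_index_eq_minFac_card
    rw [hminP]
    exact hidx
  have hidxR : P₀.relIndex R = p := by
    rw [relIndex_eq_of_sup_eq hP₀norm hP₀P hRP (by rw [sup_comm]; exact hsup)]
    exact hidx
  -- `R₀ = C_R(A)`
  obtain ⟨R₀, hR₀def⟩ : ∃ R₀ : Subgroup G, R₀ = R ⊓ Subgroup.centralizer (A : Set G) := ⟨_, rfl⟩
  have hR₀R : R₀ ≤ R := hR₀def ▸ inf_le_left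
  have hR₀C : R₀ ≤ Subgroup.centralizer (A : Set G) := hR₀def ▸ inf_le_right
  have hR₀eq : R₀ = P₀ ⊓ R := by
    rw [hR₀def, hP₀def, inf_comm P, inf_assoc, inf_comm P R, inf_eq_left.mpr hRP, inf_comm]
  have hidxR₀ : R₀.relIndex R = p := by
    rw [hR₀eq, Subgroup.inf_relIndex_right]
    exact hidxR
  have hcardR : Nat.card R ≠ 1 := by
    intro h1
    have h2 : R₀.relIndex R ∣ Nat.card R := Subgroup.relIndex_dvd_card R₀ R
    rw [hidxR₀, h1] at h2
    exact hp.one_lt.ne' (Nat.dvd_one.mp h2)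
  have hminR : (Nat.card R).minFac = p := by
    obtain ⟨n, hn⟩ := IsPGroup.iff_card.mp hRp
    have hn0 : n ≠ 0 := by
      rintro rfl
      exact hcardR (by simpa using hn)
    rw [hn, hp.pow_minFac hn0]
  have hR₀normal : (R₀.subgroupOf R).Normal := by
    apply Subgroup.normal_of_index_eq_minFac_card
    rw [hminR]
    exact hidxR₀
  have hR₀norm : R ≤ Subgroup.normalizer (R₀ : Set G) :=
    (Subgroup.normal_subgroupOf_iff_le_normalizer hR₀R).mp hR₀normal
  -- three subgroups lemma: `[R, R₀] = 1`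
  have hAR₀ : ⁅A, R₀⁆ = ⊥ := by
    rw [Subgroup.commutator_comm, Subgroup.commutator_eq_bot_iff_le_centralizer]
    exact hR₀C
  have h1 : ⁅⁅A, R₀⁆, R⁆ = ⊥ := by
    rw [hAR₀]
    exact Subgroup.commutator_bot_left R
  have h2 : ⁅⁅R₀, R⁆, A⁆ = ⊥ := by
    rw [Subgroup.commutator_eq_bot_iff_le_centralizer]
    refine le_trans ?_ hR₀C
    exact commutator_le_of_le_normalizer hR₀norm
  have h3 : ⁅⁅R, A⁆, R₀⁆ = ⊥ := Subgroup.commutator_commutator_eq_bot_of_rotate h1 h2
  rw [hRR] at h3
  have hcomm : ∀ x ∈ R, ∀ y ∈ R₀, x * y = y * x := by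
    intro x hx y hy
    have h4 : ⁅x, y⁆ ∈ ⁅R, R₀⁆ := Subgroup.commutator_mem_commutator hx hy
    rw [h3, Subgroup.mem_bot, commutatorElement_eq_one_iff_mul_comm] at h4
    exact h4
  -- `R` is abelian
  have hRcomm : IsMulCommutative R := by
    haveI := hR₀normal
    haveI : Fact p.Prime := ⟨hp⟩
    have hcardq : Nat.card (R ⧸ R₀.subgroupOf R) = p := hidxR₀
    haveI : IsCyclic (R ⧸ R₀.subgroupOf R) := isCyclic_of_prime_card hcardq
    apply (QuotientGroup.mk' (R₀.subgroupOf R)).isMulCommutative_of_isCyclic_of_ker_le_center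
    rw [QuotientGroup.ker_mk']
    intro y hy
    rw [Subgroup.mem_center_iff]
    intro x
    apply Subtype.ext
    exact hcomm x x.2 y hy
  haveI := hRcomm
  have h5 := coprime_abelian_inf_commutator A R hAR hcopR
  rw [hRR, ← hR₀def, inf_eq_left.mpr hR₀R] at h5
  rw [h5, Subgroup.relIndex_bot_left] at hidxR₀
  exact hidxR₀

/-- Coprime action: if `C_K(A)` has prime index `p` in `K` then `[K, A]` has order `p`. -/
theorem coprime_commutator_card_of_index_p [Finite G] (A K : Subgroup G)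
    (hAK : A ≤ Subgroup.normalizer (K : Set G)) (hcop : (Nat.card A).Coprime (Nat.card K))
    (hsolv : Group.IsSolvable A ∨ Group.IsSolvable K) (p : ℕ) (hp : p.Prime)
    (hidx : (K ⊓ Subgroup.centralizer (A : Set G)).relIndex K = p) :
    Nat.card (⁅K, A⁆ : Subgroup G) = p := by
  haveI : Fact p.Prime := ⟨hp⟩
  obtain ⟨C, hCdef⟩ : ∃ C : Subgroup G, C = K ⊓ Subgroup.centralizer (A : Set G) := ⟨_, rfl⟩
  rw [← hCdef] at hidx
  have hCK : C ≤ K := hCdef ▸ inf_le_left
  have hCA : C ≤ Subgroup.centralizer (A : Set G) := hCdef ▸ inf_le_right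
  have hcardK : Nat.card K = p * Nat.card C := by
    have h1 := Subgroup.relIndex_mul_relIndex ⊥ C K bot_le hCK
    rw [Subgroup.relIndex_bot_left, Subgroup.relIndex_bot_left, hidx] at h1
    rw [← h1, mul_comm]
  have hC0 : Nat.card C ≠ 0 := Nat.card_pos.ne'
  have hfact : (Nat.card K).factorization p = (Nat.card C).factorization p + 1 := by
    rw [hcardK, Nat.factorization_mul hp.ne_zero hC0]
    simp [hp.factorization_self, add_comm]
  -- a Sylow `p`-subgroup of `C`
  obtain ⟨S⟩ : Nonempty (Sylow p C) := inferInstance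
  obtain ⟨S', hS'def⟩ : ∃ S' : Subgroup G, S' = (S : Subgroup C).map C.subtype := ⟨_, rfl⟩
  have hS'C : S' ≤ C := hS'def ▸ Subgroup.map_subtype_le _
  have hS'p : IsPGroup p S' := hS'def ▸ S.2.map C.subtype
  have hS'card : Nat.card S' = p ^ (Nat.card C).factorization p := by
    rw [hS'def, Subgroup.card_map_of_injective C.subtype_injective]
    exact S.card_eq_multiplicity
  have hAS' : A ≤ Subgroup.normalizer (S' : Set G) :=
    le_normalizer_of_le_centralizer (hS'C.trans hCA)
  obtain ⟨Q, hS'Q, hAQ⟩ := invariant_pgroup_le_invariant_sylow A K hAK hcop hsolv p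
    (Nat.card K - Nat.card S') S' (hS'C.trans hCK) hS'p hAS' le_rfl
  obtain ⟨P, hPdef⟩ : ∃ P : Subgroup G, P = (Q : Subgroup K).map K.subtype := ⟨_, rfl⟩
  rw [← hPdef] at hS'Q hAQ
  have hPK : P ≤ K := hPdef ▸ Subgroup.map_subtype_le _
  have hPp : IsPGroup p P := hPdef ▸ Q.2.map K.subtype
  have hPcard : Nat.card P = p ^ ((Nat.card C).factorization p + 1) := by
    rw [hPdef, Subgroup.card_map_of_injective K.subtype_injective, ← hfact]
    exact Q.card_eq_multiplicity
  -- the order of `P ⊓ C`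
  have hPCp : IsPGroup p (P ⊓ C : Subgroup G) := hPp.to_le inf_le_left
  obtain ⟨m, hm⟩ := IsPGroup.iff_card.mp hPCp
  have hm1 : m ≤ (Nat.card C).factorization p := by
    rw [← hp.pow_dvd_iff_le_factorization hC0, ← hm]
    exact Subgroup.card_dvd_of_le inf_le_right
  have hm2 : (Nat.card C).factorization p ≤ m := by
    have h1 : Nat.card S' ∣ Nat.card (P ⊓ C : Subgroup G) :=
      Subgroup.card_dvd_of_le (le_inf hS'Q hS'C)
    rw [hS'card, hm] at h1
    exact (Nat.pow_dvd_pow_iff_le_right hp.one_lt).mp h1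
  have hPCcard : Nat.card (P ⊓ C : Subgroup G) = p ^ (Nat.card C).factorization p := by
    rw [hm, le_antisymm hm1 hm2]
  have hPCeq : P ⊓ C = P ⊓ Subgroup.centralizer (A : Set G) := by
    rw [hCdef, ← inf_assoc, inf_eq_left.mpr hPK]
  have hidxP : (P ⊓ Subgroup.centralizer (A : Set G)).relIndex P = p := by
    have h1 := Subgroup.relIndex_mul_relIndex ⊥ (P ⊓ C) P bot_le inf_le_left
    rw [Subgroup.relIndex_bot_left, Subgroup.relIndex_bot_left, hPCcard, hPcard, pow_succ] at h1
    rw [← hPCeq]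
    exact Nat.eq_of_mul_eq_mul_left (pow_pos hp.pos _) h1
  have hcopP : (Nat.card A).Coprime (Nat.card P) :=
    Nat.Coprime.coprime_dvd_right (Subgroup.card_dvd_of_le hPK) hcop
  have hPA := pgroup_commutator_card_of_index_p A P p hPp hAQ hcopP hidxP
  -- `K = P C`, hence `[K, A] = [P, A]`
  have hfac : ∀ k ∈ K, ∃ u ∈ P, ∃ c ∈ C, k = u * c := by
    intro k hk
    apply exists_mul_of_relIndex_le hPK C _ hk
    rw [hidx, ← Subgroup.inf_relIndex_left, hPCeq, hidxP]
  have heq : ⁅K, A⁆ = ⁅P, A⁆ := by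
    apply le_antisymm
    · rw [Subgroup.commutator_le]
      intro k hk a ha
      obtain ⟨u, hu, c, hc, rfl⟩ := hfac k hk
      have hca : a * c = c * a := (Subgroup.mem_centralizer_iff.mp (hCA hc)) a ha
      have h3 : ⁅u * c, a⁆ = ⁅u, a⁆ := by
        rw [commutatorElement_def, commutatorElement_def]
        calc u * c * a * (u * c)⁻¹ * a⁻¹ = u * (c * a) * c⁻¹ * u⁻¹ * a⁻¹ := by group
          _ = u * (a * c) * c⁻¹ * u⁻¹ * a⁻¹ := by rw [hca]
          _ = u * a * u⁻¹ * a⁻¹ := by group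
      rw [h3]
      exact Subgroup.commutator_mem_commutator hu ha
    · exact Subgroup.commutator_mono hPK le_rfl
  rw [heq]
  exact hPA

end IndexP

end Cfsg.Agent.Lib.Helper1
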