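import Mathlib
import Cfsg.Agent.Lib.Helper1.Basic
import Cfsg.Agent.Lib.Helper1.SZ
import Cfsg.Agent.Lib.Helper1.Coprime
import Cfsg.Agent.Lib.Helper1.Cores
import Cfsg.Agent.Lib.Helper1.FStarQuot
import Cfsg.Agent.S0559
import Cfsg.Agent.S0561

set_option autoImplicit false
set_option linter.style.haveILetI false

/-! Products of two nilpotent subgroups of coprime orders: basic tools. -/

namespace Cfsg.Agent.Lib.Helper1.KW

open Pointwise

universe u

section Generic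

variable {G : Type u} [Group G]

theorem conj_mem_of_mem_normalizer {g x : G} {S : Subgroup G}
    (hg : g ∈ Subgroup.normalizer (S : Set G)) (hx : x ∈ S) : g * x * g⁻¹ ∈ S :=
  (Subgroup.mem_normalizer_iff.mp hg x).mp hx

theorem conj_inv_mem_of_mem_normalizer {g x : G} {S : Subgroup G}
    (hg : g ∈ Subgroup.normalizer (S : Set G)) (hx : x ∈ S) : g⁻¹ * x * g ∈ S := by
  apply (Subgroup.mem_normalizer_iff.mp hg (g⁻¹ * x * g)).mpr
  have h2 : g * (g⁻¹ * x * g) * g⁻¹ = x := by group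
  rw [h2]
  exact hx

theorem mem_normalizer_of_forall [Finite G] {g : G} {S : Subgroup G}
    (h : ∀ x ∈ S, g * x * g⁻¹ ∈ S) : g ∈ Subgroup.normalizer (S : Set G) := by
  apply mem_normalizer_of_conj_smul_eq
  apply conj_smul_eq_of_le
  intro y hy
  rw [mem_conj_smul_iff] at hy
  have h1 := h _ hy
  have h2 : g * (g⁻¹ * y * g) * g⁻¹ = y := by group
  rw [h2] at h1
  exact h1

/-- if `w` normalises `C` and `c ∈ C` then `(c w)^j ∈ C w^j` -/
theorem mul_pow_mem (C : Subgroup G) {c w : G} (hc : c ∈ C)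
    (hw : w ∈ Subgroup.normalizer (C : Set G)) (j : ℕ) : (c * w) ^ j * (w ^ j)⁻¹ ∈ C := by
  induction j with
  | zero => simp
  | succ j ih =>
    have hwj : w ^ j ∈ Subgroup.normalizer (C : Set G) := pow_mem hw j
    have h1 := conj_mem_of_mem_normalizer hwj hc
    have h2 : ∀ A B : G, A * (c * w) * (B * w)⁻¹ = (A * B⁻¹) * (B * c * B⁻¹) := by
      intro A B; group
    rw [pow_succ, pow_succ, h2]
    exact C.mul_mem ih h1

theorem mem_of_pow_mem_of_coprime (C : Subgroup G) {g : G} {e : ℕ}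
    (hcop : (orderOf g).Coprime e) (h : g ^ e ∈ C) : g ∈ C := by
  obtain ⟨j, hj⟩ := exists_pow_eq_self_of_coprime (x := g) hcop.symm
  rw [← hj]
  exact pow_mem h j

theorem pow_card_of_mem {H : Subgroup G} {x : G} (hx : x ∈ H) : x ^ Nat.card H = 1 := by
  have h := pow_card_eq_one' (G := H) (x := ⟨x, hx⟩)
  have h2 := congrArg Subtype.val h
  rw [Subgroup.coe_pow] at h2
  exact h2

theorem pel_of_isPGroup {t : ℕ} {U : Subgroup G} (hU : IsPGroup t U) {x : G} (hx : x ∈ U) :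
    ∃ n : ℕ, x ^ t ^ n = 1 := by
  obtain ⟨n, hn⟩ := hU ⟨x, hx⟩
  refine ⟨n, ?_⟩
  have h2 := congrArg Subtype.val hn
  rw [Subgroup.coe_pow] at h2
  exact h2

theorem isPGroup_of_pel {t : ℕ} {U : Subgroup G} (h : ∀ x ∈ U, ∃ n : ℕ, x ^ t ^ n = 1) :
    IsPGroup t U := by
  intro x
  obtain ⟨n, hn⟩ := h x.1 x.2
  refine ⟨n, Subtype.ext ?_⟩
  rw [Subgroup.coe_pow]
  exact hn

theorem eq_one_of_pow_coprime {x : G} {a b : ℕ} (hab : a.Coprime b) (ha : x ^ a = 1)
    (hb : x ^ b = 1) : x = 1 :=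
  orderOf_eq_one_iff.mp (Nat.eq_one_of_dvd_coprimes hab (orderOf_dvd_of_pow_eq_one ha)
    (orderOf_dvd_of_pow_eq_one hb))

theorem prime_dvd_card_of_isPGroup [Finite G] {t : ℕ} [Fact t.Prime] {U : Subgroup G}
    (hU : IsPGroup t U) (hU1 : U ≠ ⊥) : t ∣ Nat.card U := by
  obtain ⟨j, hj⟩ := IsPGroup.iff_card.mp hU
  rcases Nat.eq_zero_or_pos j with h0 | h0
  · exfalso
    apply hU1
    rw [h0, pow_zero] at hj
    exact Subgroup.eq_bot_of_card_eq U hj
  · rw [hj]
    exact dvd_pow_self t h0.ne'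

theorem isPGroup_conj {t : ℕ} {U : Subgroup G} (hU : IsPGroup t U) (g : G) :
    IsPGroup t (MulAut.conj g • U : Subgroup G) := by
  apply isPGroup_of_pel
  intro y hy
  rw [mem_conj_smul_iff] at hy
  obtain ⟨n, hn⟩ := pel_of_isPGroup hU hy
  refine ⟨n, ?_⟩
  have e : g⁻¹ * y * g = g⁻¹ * y * g⁻¹⁻¹ := by rw [inv_inv]
  rw [e, conj_pow] at hn
  have h3 : y ^ t ^ n = g * (g⁻¹ * y ^ t ^ n * g⁻¹⁻¹) * g⁻¹ := by group
  rw [h3, hn]
  group

/-- `H ≤ U` as soon as `U` contains all elements of prime power order of `H` -/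
theorem le_of_pel [Finite G] (H U : Subgroup G)
    (h : ∀ (q : ℕ) [Fact q.Prime] (x : G), x ∈ H → (∃ n : ℕ, x ^ q ^ n = 1) → x ∈ U) :
    H ≤ U := by
  have h1 := FStarQuot.eq_top_of_prime_power_elements (U.subgroupOf H) (by
    intro q _ x ⟨n, hn⟩
    rw [Subgroup.mem_subgroupOf]
    apply h q x.1 x.2
    refine ⟨n, ?_⟩
    rw [← Subgroup.coe_pow, hn]
    rfl)
  exact Subgroup.subgroupOf_eq_top.mp h1

theorem comm_of_pel [Finite G] {H : Subgroup G} (hH : Group.IsNilpotent H) {p r : ℕ}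
    [Fact p.Prime] [Fact r.Prime] (hpr : p ≠ r) {x y : G} (hx : x ∈ H) (hy : y ∈ H)
    (hxp : ∃ n : ℕ, x ^ p ^ n = 1) (hyr : ∃ n : ℕ, y ^ r ^ n = 1) : x * y = y * x := by
  obtain ⟨n, hn⟩ := hxp
  obtain ⟨k, hk⟩ := hyr
  have h := FStarQuot.commute_of_nilpotent hH hpr (x := (⟨x, hx⟩ : H)) (y := ⟨y, hy⟩)
    ⟨n, Subtype.ext (by rw [Subgroup.coe_pow]; exact hn)⟩
    ⟨k, Subtype.ext (by rw [Subgroup.coe_pow]; exact hk)⟩
  exact congrArg Subtype.val h.eq

/-- Sylow's theorem relative to a subgroup `X` -/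
theorem sylIn [Finite G] {r : ℕ} [Fact r.Prime] (X S R : Subgroup G) (hSX : S ≤ X)
    (hS : IsPGroup r S)
    (hmax : ∀ R' : Subgroup G, R' ≤ X → IsPGroup r R' → S ≤ R' → R' ≤ S)
    (hRX : R ≤ X) (hR : IsPGroup r R) : ∃ x ∈ X, R ≤ MulAut.conj x • S := by
  obtain ⟨P, hP⟩ := (hS.comap_subtype (K := X)).exists_le_sylow
  obtain ⟨Q, hQ⟩ := (hR.comap_subtype (K := X)).exists_le_sylow
  have hPS : (P : Subgroup X).map X.subtype ≤ S := by
    apply hmax _ (Subgroup.map_subtype_le _) (P.isPGroup'.map _)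
    intro s hs
    exact ⟨⟨s, hSX hs⟩, hP (show (⟨s, hSX hs⟩ : X) ∈ Subgroup.comap X.subtype S from hs), rfl⟩
  obtain ⟨x, hx⟩ := MulAction.exists_smul_eq X P Q
  refine ⟨x.1, x.2, ?_⟩
  intro y hy
  have h1 : (⟨y, hRX hy⟩ : X) ∈ (Q : Subgroup X) :=
    hQ (show (⟨y, hRX hy⟩ : X) ∈ Subgroup.comap X.subtype R from hy)
  rw [← hx, Sylow.coe_subgroup_smul, mem_conj_smul_iff] at h1
  rw [mem_conj_smul_iff]
  exact hPS ⟨_, h1, rfl⟩

theorem card_prod_coprime [Finite G] (A B X : Subgroup G)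
    (hX : (X : Set G) = (A : Set G) * (B : Set G))
    (hcop : (Nat.card A).Coprime (Nat.card B)) : Nat.card X = Nat.card A * Nat.card B := by
  have hA : A ≤ X := by
    intro a ha
    have h1 : a ∈ (X : Set G) := by
      rw [hX]
      exact ⟨a, ha, 1, B.one_mem, mul_one a⟩
    exact h1
  have hB : B ≤ X := by
    intro b hb
    have h1 : b ∈ (X : Set G) := by
      rw [hX]
      exact ⟨1, A.one_mem, b, hb, one_mul b⟩
    exact h1
  have hdisj : A ⊓ B = ⊥ := (Subgroup.disjoint_of_coprime_natCard hcop).eq_bot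
  have hc : (A.subgroupOf X).IsComplement' (B.subgroupOf X) := by
    apply isComplement'_of_disjoint_of_mul
    · rw [Subgroup.eq_bot_iff_forall]
      intro x hx
      obtain ⟨h1, h2⟩ := Subgroup.mem_inf.mp hx
      have h3 : (x : G) ∈ A ⊓ B := ⟨h1, h2⟩
      rw [hdisj, Subgroup.mem_bot] at h3
      exact Subtype.ext h3
    · intro g
      have hg : (g : G) ∈ (A : Set G) * (B : Set G) := by
        rw [← hX]
        exact g.2
      obtain ⟨a, ha, b, hb, hab⟩ := hg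
      exact ⟨⟨a, hA ha⟩, ha, ⟨b, hB hb⟩, hb, Subtype.ext hab.symm⟩
  have h := hc.card_mul_card
  rw [← h, Nat.card_congr (Subgroup.subgroupOfEquivOfLe hA).toEquiv,
    Nat.card_congr (Subgroup.subgroupOfEquivOfLe hB).toEquiv]

/-- relative form of the permutability of normal Hall subgroups of the factors of a solvable
factorised group -/
theorem rel561 [Finite G] (H K L A B : Subgroup G) [Group.IsSolvable L]
    (hfac : ∀ l ∈ L, ∃ h ∈ H ⊓ L, ∃ k ∈ K ⊓ L, l = h * k)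
    (hA : A ≤ H ⊓ L) (hAn : H ⊓ L ≤ Subgroup.normalizer (A : Set G))
    (hB : B ≤ K ⊓ L) (hBn : K ⊓ L ≤ Subgroup.normalizer (B : Set G))
    (hAh : (Nat.card A).Coprime (A.relIndex L)) (hBh : (Nat.card B).Coprime (B.relIndex L)) :
    ∃ S : Subgroup G, S ≤ L ∧ (S : Set G) = (A : Set G) * (B : Set G) := by
  have hAL : A ≤ L := hA.trans inf_le_right
  have hBL : B ≤ L := hB.trans inf_le_right
  have key := Cfsg.Agent.S0561.result (G := L) ((H ⊓ L).subgroupOf L) ((K ⊓ L).subgroupOf L)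
    (A.subgroupOf L) (B.subgroupOf L)
    (by
      intro g
      obtain ⟨h, hh, k, hk, hg⟩ := hfac g.1 g.2
      exact ⟨⟨h, (Subgroup.mem_inf.mp hh).2⟩, hh, ⟨k, (Subgroup.mem_inf.mp hk).2⟩, hk,
        Subtype.ext hg⟩)
    (by intro x hx; exact hA hx)
    (by
      constructor
      intro n hn g
      have hg : ((g : L) : G) ∈ H ⊓ L := g.2
      have hn' : ((n : L) : G) ∈ A := hn
      have h0 : ((g : L) : G) * ((n : L) : G) * ((g : L) : G)⁻¹ ∈ A :=
        conj_mem_of_mem_normalizer (hAn hg) hn'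
      exact h0)
    (by intro x hx; exact hB hx)
    (by
      constructor
      intro n hn g
      have hg : ((g : L) : G) ∈ K ⊓ L := g.2
      have hn' : ((n : L) : G) ∈ B := hn
      have h0 : ((g : L) : G) * ((n : L) : G) * ((g : L) : G)⁻¹ ∈ B :=
        conj_mem_of_mem_normalizer (hBn hg) hn'
      exact h0)
    (by
      rw [Nat.card_congr (Subgroup.subgroupOfEquivOfLe hAL).toEquiv]
      exact hAh)
    (by
      rw [Nat.card_congr (Subgroup.subgroupOfEquivOfLe hBL).toEquiv]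
      exact hBh)
    1 1
  obtain ⟨S, hS⟩ := key
  simp only [map_one, one_smul] at hS
  refine ⟨S.map L.subtype, Subgroup.map_subtype_le _, ?_⟩
  ext x
  constructor
  · rintro ⟨s, hs, rfl⟩
    have h1 : s ∈ (S : Set L) := hs
    rw [hS] at h1
    obtain ⟨a, ha, b, hb, hab⟩ := h1
    exact ⟨a.1, ha, b.1, hb, congrArg Subtype.val hab⟩
  · rintro ⟨a, ha, b, hb, rfl⟩
    have h1 : (⟨a, hAL ha⟩ * ⟨b, hBL hb⟩ : L) ∈ (S : Set L) := by
      rw [hS]
      exact ⟨_, ha, _, hb, rfl⟩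
    exact ⟨_, h1, rfl⟩

/-- a subgroup normalised by a factorised subgroup is factorised -/
theorem fac_of_normalized [Finite G] {H K L U : Subgroup G}
    (hcop : (Nat.card H).Coprime (Nat.card K))
    (hfac : ∀ l ∈ L, ∃ h ∈ H ⊓ L, ∃ k ∈ K ⊓ L, l = h * k) (hUL : U ≤ L)
    (hLU : L ≤ Subgroup.normalizer (U : Set G)) :
    ∀ u ∈ U, ∃ h ∈ H ⊓ U, ∃ k ∈ K ⊓ U, u = h * k := by
  intro u hu
  obtain ⟨h, hh, k, hk, huk⟩ := hfac u (hUL hu)
  obtain ⟨hhH, hhL⟩ := Subgroup.mem_inf.mp hh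
  obtain ⟨hkK, hkL⟩ := Subgroup.mem_inf.mp hk
  have hhN : h⁻¹ ∈ Subgroup.normalizer (U : Set G) := inv_mem (hLU hhL)
  have hc' : h⁻¹ * u * h ∈ U := by
    have h0 := conj_mem_of_mem_normalizer hhN hu
    rw [inv_inv] at h0
    exact h0
  have hk2 : k = (h⁻¹ * u * h) * h⁻¹ := by rw [huk]; group
  have h1 := mul_pow_mem U hc' hhN (Nat.card H)
  rw [← hk2, pow_card_of_mem (inv_mem hhH), inv_one, mul_one] at h1
  have hkU : k ∈ U := by
    apply mem_of_pow_mem_of_coprime U _ h1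
    exact Nat.Coprime.coprime_dvd_left (orderOf_dvd_of_pow_eq_one (pow_card_of_mem hkK))
      hcop.symm
  have hhU : h ∈ U := by
    have h3 : h = u * k⁻¹ := by rw [huk]; group
    rw [h3]
    exact U.mul_mem hu (U.inv_mem hkU)
  exact ⟨h, Subgroup.mem_inf.mpr ⟨hhH, hhU⟩, k, Subgroup.mem_inf.mpr ⟨hkK, hkU⟩, huk⟩

/-- a `t`-subgroup normalised by a factorised subgroup `L`, `t ∤ |K|`, lies in `H` -/
theorem npi [Finite G] {H K L U : Subgroup G} (hcop : (Nat.card H).Coprime (Nat.card K))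
    (hfac : ∀ l ∈ L, ∃ h ∈ H ⊓ L, ∃ k ∈ K ⊓ L, l = h * k) (hUL : U ≤ L)
    (hLU : L ≤ Subgroup.normalizer (U : Set G)) {t : ℕ} (ht : t.Prime) (hU : IsPGroup t U)
    (htK : ¬ t ∣ Nat.card K) : U ≤ H := by
  intro u hu
  obtain ⟨h, hh, k, hk, huk⟩ := fac_of_normalized hcop hfac hUL hLU u hu
  obtain ⟨hkK, hkU⟩ := Subgroup.mem_inf.mp hk
  obtain ⟨n, hn⟩ := pel_of_isPGroup hU hkU
  have hk1 : k = 1 := eq_one_of_pow_coprime
    (Nat.Coprime.pow_left n ((Nat.Prime.coprime_iff_not_dvd ht).mpr htK)) hn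
    (pow_card_of_mem hkK)
  rw [huk, hk1, mul_one]
  exact (Subgroup.mem_inf.mp hh).1

theorem exists_central_ne_one {K : Subgroup G} (hK : Group.IsNilpotent K) (hK1 : K ≠ ⊥) :
    ∃ z ∈ K, z ≠ 1 ∧ ∀ y ∈ K, y * z = z * y := by
  haveI := hK
  haveI : Nontrivial K := (Subgroup.nontrivial_iff_ne_bot K).mpr hK1
  have hZ := Group.IsNilpotent.center_ne_bot K
  rw [Ne, Subgroup.eq_bot_iff_forall] at hZ
  push Not at hZ
  obtain ⟨z, hz, hz1⟩ := hZ
  refine ⟨z.1, z.2, fun h => hz1 (Subtype.ext h), fun y hy => ?_⟩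
  exact congrArg Subtype.val (Subgroup.mem_center_iff.mp hz ⟨y, hy⟩)

/-- the centre of a subgroup, as a subgroup of the ambient group -/
def ZS (K : Subgroup G) : Subgroup G := (Subgroup.center K).map K.subtype

theorem mem_ZS {K : Subgroup G} {x : G} : x ∈ ZS K ↔ x ∈ K ∧ ∀ y ∈ K, y * x = x * y := by
  constructor
  · rintro ⟨z, hz, rfl⟩
    exact ⟨z.2, fun y hy => congrArg Subtype.val (Subgroup.mem_center_iff.mp hz ⟨y, hy⟩)⟩
  · rintro ⟨hx, h⟩
    exact ⟨⟨x, hx⟩, Subgroup.mem_center_iff.mpr (fun g => Subtype.ext (h g.1 g.2)), rfl⟩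

theorem ZS_le (K : Subgroup G) : ZS K ≤ K := Subgroup.map_subtype_le _

theorem le_normalizer_ZS [Finite G] (K : Subgroup G) :
    K ≤ Subgroup.normalizer (ZS K : Set G) := by
  intro k hk
  apply mem_normalizer_of_forall
  intro x hx
  rw [mem_ZS] at hx
  have h1 : k * x * k⁻¹ = x := by
    rw [hx.2 k hk]
    group
  rw [h1]
  exact mem_ZS.mpr hx

theorem ZS_ne_bot {K : Subgroup G} (hK : Group.IsNilpotent K) (hK1 : K ≠ ⊥) : ZS K ≠ ⊥ := by
  obtain ⟨z, hz, hz1, hzc⟩ := exists_central_ne_one hK hK1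
  intro h
  have h1 : z ∈ ZS K := mem_ZS.mpr ⟨hz, hzc⟩
  rw [h, Subgroup.mem_bot] at h1
  exact hz1 h1

theorem nilp_sub {H : Subgroup G} (hH : Group.IsNilpotent H) (L : Subgroup G) :
    Group.IsNilpotent ((H ⊓ L).subgroupOf L) := by
  haveI := hH
  have h1 : Group.IsNilpotent (H ⊓ L : Subgroup G) :=
    Subgroup.isNilpotent_of_ker_le_center (Subgroup.inclusion (inf_le_left : H ⊓ L ≤ H))
      (by
        rw [(MonoidHom.ker_eq_bot_iff _).mpr (Subgroup.inclusion_injective _)]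
        exact bot_le)
  haveI := h1
  exact Group.nilpotent_of_surjective
    (Subgroup.subgroupOfEquivOfLe (inf_le_right : H ⊓ L ≤ L)).symm.toMonoidHom
    (Subgroup.subgroupOfEquivOfLe (inf_le_right : H ⊓ L ≤ L)).symm.surjective

theorem exists_normal_pgroup_sub [Finite G] (X : Subgroup G) [Group.IsSolvable X] (hX : X ≠ ⊥) :
    ∃ t : ℕ, t.Prime ∧ ∃ U : Subgroup G, U ≤ X ∧ X ≤ Subgroup.normalizer (U : Set G) ∧
      IsPGroup t U ∧ U ≠ ⊥ := by
  haveI : Nontrivial X := (Subgroup.nontrivial_iff_ne_bot X).mpr hX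
  obtain ⟨t, ht, Q, hQn, hQ1, hQ⟩ := exists_normal_pgroup X
  refine ⟨t, ht, Q.map X.subtype, Subgroup.map_subtype_le _, ?_, hQ.map _, ?_⟩
  · intro x hx
    apply mem_normalizer_of_forall
    rintro _ ⟨y, hy, rfl⟩
    exact ⟨⟨x, hx⟩ * y * ⟨x, hx⟩⁻¹, hQn.conj_mem y hy ⟨x, hx⟩, rfl⟩
  · intro h
    apply hQ1
    rw [Subgroup.eq_bot_iff_forall] at h ⊢
    intro y hy
    exact Subtype.ext (h _ ⟨y, hy, rfl⟩)

theorem pCore_characteristic {X : Type*} [Group X] [Finite X] (p : ℕ) [Fact p.Prime] :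
    (Cfsg.pCore p X).Characteristic := by
  rw [Subgroup.characteristic_iff_map_le]
  intro φ
  exact le_pCore p ((pCore_normal p).map φ.toMonoidHom φ.surjective) ((pCore_isPGroup p).map _)

theorem exists_char_pgroup_sub [Finite G] (T : Subgroup G) [Group.IsSolvable T] (hT : T ≠ ⊥) :
    ∃ t : ℕ, t.Prime ∧ ∃ U : Subgroup G, U ≤ T ∧
      Subgroup.normalizer (T : Set G) ≤ Subgroup.normalizer (U : Set G) ∧ IsPGroup t U ∧
      U ≠ ⊥ := by
  haveI : Nontrivial T := (Subgroup.nontrivial_iff_ne_bot T).mpr hT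
  obtain ⟨t, ht, Q, hQn, hQ1, hQ⟩ := exists_normal_pgroup T
  haveI : Fact t.Prime := ⟨ht⟩
  haveI := pCore_characteristic (X := T) t
  refine ⟨t, ht, (Cfsg.pCore t T).map T.subtype, Subgroup.map_subtype_le _,
    normalizer_le_normalizer_map_of_characteristic _, (pCore_isPGroup t).map _, ?_⟩
  intro h
  apply hQ1
  have hle : Q ≤ Cfsg.pCore t T := le_pCore t hQn hQ
  rw [Subgroup.eq_bot_iff_forall] at h ⊢
  intro y hy
  exact Subtype.ext (h _ ⟨y, hle hy, rfl⟩)

/-- a nontrivial normal subgroup of a `p`-group meets the centre -/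
theorem normal_inf_center [Finite G] {r : ℕ} [Fact r.Prime] {P U : Subgroup G}
    (hP : IsPGroup r P) (hUP : U ≤ P) (hPU : P ≤ Subgroup.normalizer (U : Set G))
    (hU1 : U ≠ ⊥) : ∃ a ∈ U, a ≠ 1 ∧ ∀ y ∈ P, y * a = a * y := by
  haveI hn : (U.subgroupOf P).Normal :=
    (Subgroup.normal_subgroupOf_iff_le_normalizer hUP).mpr hPU
  letI : MulAction P (U.subgroupOf P) :=
    MulAction.compHom (U.subgroupOf P) (MulAut.conjNormal (H := U.subgroupOf P))
  have hcard : r ∣ Nat.card (U.subgroupOf P) := by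
    rw [Nat.card_congr (Subgroup.subgroupOfEquivOfLe hUP).toEquiv]
    exact prime_dvd_card_of_isPGroup (hP.to_le hUP) hU1
  have hfix : (1 : U.subgroupOf P) ∈ MulAction.fixedPoints P (U.subgroupOf P) := by
    intro g
    show MulAut.conjNormal g (1 : U.subgroupOf P) = 1
    exact map_one _
  obtain ⟨b, hb, hb1⟩ :=
    hP.exists_fixed_point_of_prime_dvd_card_of_fixed_point (U.subgroupOf P) hcard hfix
  refine ⟨((b : P) : G), b.2, ?_, ?_⟩
  · intro h
    exact hb1 (Subtype.ext (Subtype.ext h)).symm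
  · intro y hy
    have h1 : MulAut.conjNormal (⟨y, hy⟩ : P) b = b := hb ⟨y, hy⟩
    have h2 := congrArg (fun z : U.subgroupOf P => ((z : P) : G)) h1
    simp only [MulAut.conjNormal_apply, Subgroup.coe_mul, Subgroup.coe_inv] at h2
    have h3 : y * ((b : P) : G) = (y * ((b : P) : G) * y⁻¹) * y := by group
    rw [h3, h2]

theorem card_ne_add_one (α : Type*) [Finite α] (a : α) :
    Nat.card {s : α // s ≠ a} + 1 = Nat.card α := by
  classical
  rw [← Finite.card_option, Nat.card_congr (Equiv.optionSubtypeNe a)]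

theorem exists_prime_pow_el [Finite G] {x : G} (hx1 : x ≠ 1) :
    ∃ p : ℕ, p.Prime ∧ ∃ j : ℕ, x ^ j ≠ 1 ∧ (x ^ j) ^ p = 1 := by
  have h1 : orderOf x ≠ 1 := fun h => hx1 (orderOf_eq_one_iff.mp h)
  obtain ⟨p, hp, hpd⟩ := Nat.exists_prime_and_dvd h1
  have h2 : orderOf (x ^ (orderOf x / p)) = p :=
    orderOf_pow_orderOf_div (orderOf_pos x).ne' hpd
  refine ⟨p, hp, orderOf x / p, ?_, ?_⟩
  · intro h
    rw [h, orderOf_one] at h2
    exact hp.one_lt.ne h2
  · have h3 := pow_orderOf_eq_one (x ^ (orderOf x / p))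
    rw [h2] at h3
    exact h3

end Generic

section Config

variable {G : Type u} [Group G]

/-- a factorisation of `G` by two nilpotent subgroups of coprime orders -/
structure Cfg (H K : Subgroup G) : Prop where
  nH : Group.IsNilpotent H
  nK : Group.IsNilpotent K
  cop : (Nat.card H).Coprime (Nat.card K)
  fac : ∀ g : G, ∃ h ∈ H, ∃ k ∈ K, g = h * k

variable {H K : Subgroup G}

theorem Cfg.symm (c : Cfg H K) : Cfg K H := by
  refine ⟨c.nK, c.nH, c.cop.symm, ?_⟩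
  intro g
  obtain ⟨h, hh, k, hk, e⟩ := c.fac g⁻¹
  refine ⟨k⁻¹, inv_mem hk, h⁻¹, inv_mem hh, ?_⟩
  rw [← mul_inv_rev, ← e, inv_inv]

theorem Cfg.inf_eq_bot (c : Cfg H K) : H ⊓ K = ⊥ :=
  (Subgroup.disjoint_of_coprime_natCard c.cop).eq_bot

theorem Cfg.isCompl (c : Cfg H K) : H.IsComplement' K :=
  isComplement'_of_disjoint_of_mul c.inf_eq_bot c.fac

theorem Cfg.card (c : Cfg H K) : Nat.card H * Nat.card K = Nat.card G :=
  c.isCompl.card_mul_card

theorem Cfg.index_H (c : Cfg H K) : H.index = Nat.card K :=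
  c.isCompl.symm.index_eq_card

theorem Cfg.conj_right [Finite G] (c : Cfg H K) (x : G) : Cfg H (MulAut.conj x • K) := by
  refine ⟨c.nH, ?_, ?_, ?_⟩
  · haveI := c.nK
    exact Group.nilpotent_of_surjective (Subgroup.equivSMul (MulAut.conj x) K).toMonoidHom
      (Subgroup.equivSMul (MulAut.conj x) K).surjective
  · rw [card_conj_smul]
    exact c.cop
  · exact (Cfsg.Agent.S0559.result H K H (MulAut.conj x • K) c.fac
      ⟨1, by rw [map_one, one_smul]⟩ ⟨x, rfl⟩).1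

theorem Cfg.map (c : Cfg H K) {G' : Type*} [Group G'] (f : G →* G')
    (hf : Function.Surjective f) : Cfg (H.map f) (K.map f) := by
  refine ⟨?_, ?_, ?_, ?_⟩
  · haveI := c.nH
    exact Group.nilpotent_of_surjective (f.subgroupMap H) (f.subgroupMap_surjective H)
  · haveI := c.nK
    exact Group.nilpotent_of_surjective (f.subgroupMap K) (f.subgroupMap_surjective K)
  · exact Nat.Coprime.coprime_dvd_left (Subgroup.card_map_dvd H f)
      (Nat.Coprime.coprime_dvd_right (Subgroup.card_map_dvd K f) c.cop)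
  · intro g'
    obtain ⟨g, rfl⟩ := hf g'
    obtain ⟨h, hh, k, hk, rfl⟩ := c.fac g
    exact ⟨f h, Subgroup.mem_map_of_mem f hh, f k, Subgroup.mem_map_of_mem f hk, map_mul f h k⟩

theorem Cfg.sub {L : Subgroup G} (c : Cfg H K)
    (hfac : ∀ l ∈ L, ∃ h ∈ H ⊓ L, ∃ k ∈ K ⊓ L, l = h * k) :
    Cfg ((H ⊓ L).subgroupOf L) ((K ⊓ L).subgroupOf L) := by
  refine ⟨nilp_sub c.nH L, nilp_sub c.nK L, ?_, ?_⟩
  · rw [Nat.card_congr (Subgroup.subgroupOfEquivOfLe (inf_le_right : H ⊓ L ≤ L)).toEquiv,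
      Nat.card_congr (Subgroup.subgroupOfEquivOfLe (inf_le_right : K ⊓ L ≤ L)).toEquiv]
    exact Nat.Coprime.coprime_dvd_left (Subgroup.card_dvd_of_le inf_le_left)
      (Nat.Coprime.coprime_dvd_right (Subgroup.card_dvd_of_le inf_le_left) c.cop)
  · intro g
    obtain ⟨h, hh, k, hk, e⟩ := hfac g.1 g.2
    exact ⟨⟨h, (Subgroup.mem_inf.mp hh).2⟩, hh, ⟨k, (Subgroup.mem_inf.mp hk).2⟩, hk,
      Subtype.ext e⟩

theorem hall_inf {L : Subgroup G} (c : Cfg H K)
    (hfac : ∀ l ∈ L, ∃ h ∈ H ⊓ L, ∃ k ∈ K ⊓ L, l = h * k) :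
    (Nat.card (K ⊓ L : Subgroup G)).Coprime ((K ⊓ L).relIndex L) := by
  have c' := c.sub hfac
  have h1 : (K ⊓ L).relIndex L = Nat.card ((H ⊓ L).subgroupOf L) := c'.symm.index_H
  rw [h1, Nat.card_congr (Subgroup.subgroupOfEquivOfLe (inf_le_right : H ⊓ L ≤ L)).toEquiv]
  exact Nat.Coprime.coprime_dvd_left (Subgroup.card_dvd_of_le inf_le_left)
    (Nat.Coprime.coprime_dvd_right (Subgroup.card_dvd_of_le inf_le_left) c.cop.symm)

theorem Cfg.normalizer_eq (c : Cfg H K) :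
    ((Subgroup.normalizer (H : Set G) : Subgroup G) : Set G) =
      (H : Set G) * ((K ⊓ Subgroup.normalizer (H : Set G) : Subgroup G) : Set G) := by
  ext g
  constructor
  · intro hg
    obtain ⟨h, hh, k, hk, rfl⟩ := c.fac g
    refine ⟨h, hh, k, Subgroup.mem_inf.mpr ⟨hk, ?_⟩, rfl⟩
    have h1 : k = h⁻¹ * (h * k) := by group
    rw [h1]
    exact mul_mem (inv_mem (Subgroup.le_normalizer hh)) hg
  · rintro ⟨h, hh, k, hk, rfl⟩
    exact mul_mem (Subgroup.le_normalizer hh) (Subgroup.mem_inf.mp hk).2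

/-- centralisers of elements of `H ∩ N(K)` are factorised -/
theorem fac_centralizer (c : Cfg H K) {x : G} (hx : x ∈ H)
    (hxN : x ∈ Subgroup.normalizer (K : Set G)) :
    ∀ l ∈ Subgroup.centralizer ({x} : Set G), ∃ h ∈ H ⊓ Subgroup.centralizer ({x} : Set G),
      ∃ k ∈ K ⊓ Subgroup.centralizer ({x} : Set G), l = h * k := by
  intro l hl
  have hlx : x * l = l * x := Subgroup.mem_centralizer_iff.mp hl x rfl
  obtain ⟨h, hh, k, hk, rfl⟩ := c.fac l
  have hw1 : k * x * k⁻¹ * x⁻¹ ∈ K := by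
    have h1 : x * k⁻¹ * x⁻¹ ∈ K := conj_mem_of_mem_normalizer hxN (inv_mem hk)
    have h2 : k * x * k⁻¹ * x⁻¹ = k * (x * k⁻¹ * x⁻¹) := by group
    rw [h2]
    exact mul_mem hk h1
  have h3 : k * x * k⁻¹ = h⁻¹ * x * h := by
    have h4 : k * x = h⁻¹ * (x * (h * k)) := by rw [hlx]; group
    rw [h4]
    group
  have hw3 : k * x * k⁻¹ * x⁻¹ ∈ H := by
    rw [h3]
    exact mul_mem (mul_mem (mul_mem (inv_mem hh) hx) hh) (inv_mem hx)
  have hw : k * x * k⁻¹ * x⁻¹ = 1 := by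
    have h5 : k * x * k⁻¹ * x⁻¹ ∈ H ⊓ K := Subgroup.mem_inf.mpr ⟨hw3, hw1⟩
    rw [c.inf_eq_bot, Subgroup.mem_bot] at h5
    exact h5
  have hkx : x * k = k * x := by
    have h6 : k * x = (k * x * k⁻¹ * x⁻¹) * (x * k) := by group
    rw [h6, hw, one_mul]
  have hhx : x * h = h * x := by
    have h4 : x * h * k = h * x * k := by
      rw [mul_assoc, hlx, mul_assoc, ← hkx, ← mul_assoc]
    exact mul_right_cancel h4
  refine ⟨h, Subgroup.mem_inf.mpr ⟨hh, ?_⟩, k, Subgroup.mem_inf.mpr ⟨hk, ?_⟩, rfl⟩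
  · rw [Subgroup.mem_centralizer_iff]
    intro b hb
    rw [Set.mem_singleton_iff] at hb
    rw [hb]
    exact hhx
  · rw [Subgroup.mem_centralizer_iff]
    intro b hb
    rw [Set.mem_singleton_iff] at hb
    rw [hb]
    exact hkx

end Config

section SylowPart

variable {G : Type u} [Group G]

/-- the Sylow `p`-subgroup of a (nilpotent) subgroup, as a subgroup of `G` -/
noncomputable def Sp (H : Subgroup G) (p : ℕ) : Subgroup G :=
  ((Classical.arbitrary (Sylow p H) : Sylow p H) : Subgroup H).map H.subtype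

theorem mem_sylow_map [Finite G] {H : Subgroup G} (hH : Group.IsNilpotent H) {p : ℕ}
    [Fact p.Prime] (P : Sylow p H) {x : G} :
    x ∈ (P : Subgroup H).map H.subtype ↔ x ∈ H ∧ ∃ n : ℕ, x ^ p ^ n = 1 := by
  constructor
  · rintro ⟨y, hy, rfl⟩
    refine ⟨y.2, ?_⟩
    obtain ⟨n, hn⟩ := P.isPGroup' ⟨y, hy⟩
    refine ⟨n, ?_⟩
    have h2 := congrArg (fun z : (P : Subgroup H) => ((z : H) : G)) hn
    simpa using h2
  · rintro ⟨hx, n, hn⟩
    have hz : IsPGroup p (Subgroup.zpowers (⟨x, hx⟩ : H)) := by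
      rintro ⟨g, hg⟩
      obtain ⟨k, rfl⟩ := Subgroup.mem_zpowers_iff.mp hg
      refine ⟨n, Subtype.ext ?_⟩
      show ((⟨x, hx⟩ : H) ^ k) ^ p ^ n = 1
      have hx' : (⟨x, hx⟩ : H) ^ p ^ n = 1 := Subtype.ext (by rw [Subgroup.coe_pow]; exact hn)
      rw [← zpow_natCast, ← zpow_mul, mul_comm, zpow_mul, zpow_natCast, hx', one_zpow]
    obtain ⟨Q, hQ⟩ := hz.exists_le_sylow
    have hnorm := (Group.isNilpotent_of_finite_tfae (G := H)).out 0 3 rfl rfl |>.mp hH
    obtain ⟨g, hg⟩ := MulAction.exists_smul_eq H Q P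
    haveI := hnorm p inferInstance Q
    rw [Sylow.smul_eq_of_normal] at hg
    refine ⟨⟨x, hx⟩, ?_, rfl⟩
    rw [← hg]
    exact hQ (Subgroup.mem_zpowers _)

theorem mem_Sp [Finite G] {H : Subgroup G} (hH : Group.IsNilpotent H) {p : ℕ} [Fact p.Prime]
    {x : G} : x ∈ Sp H p ↔ x ∈ H ∧ ∃ n : ℕ, x ^ p ^ n = 1 :=
  mem_sylow_map hH _

theorem sylow_map_eq_Sp [Finite G] {H : Subgroup G} (hH : Group.IsNilpotent H) {p : ℕ}
    [Fact p.Prime] (P : Sylow p H) : (P : Subgroup H).map H.subtype = Sp H p := by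
  ext x
  rw [mem_sylow_map hH, mem_Sp hH]

theorem Sp_le (H : Subgroup G) (p : ℕ) : Sp H p ≤ H := Subgroup.map_subtype_le _

theorem Sp_isPGroup (H : Subgroup G) (p : ℕ) : IsPGroup p (Sp H p) :=
  (Classical.arbitrary (Sylow p H)).isPGroup'.map _

theorem card_Sp [Finite G] (H : Subgroup G) (p : ℕ) [Fact p.Prime] :
    Nat.card (Sp H p) = p ^ (Nat.card H).factorization p := by
  unfold Sp
  rw [Subgroup.card_map_of_injective H.subtype_injective, Sylow.card_eq_multiplicity]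

theorem Sp_ne_bot [Finite G] {H : Subgroup G} {p : ℕ} [Fact p.Prime] (hp : p ∣ Nat.card H) :
    Sp H p ≠ ⊥ := by
  intro h
  have h1 := card_Sp H p
  rw [h, Subgroup.card_bot] at h1
  have h2 : 0 < (Nat.card H).factorization p :=
    Nat.Prime.factorization_pos_of_dvd Fact.out Nat.card_pos.ne' hp
  have h3 : 1 < p ^ (Nat.card H).factorization p :=
    Nat.one_lt_pow h2.ne' (Nat.Prime.one_lt Fact.out)
  omega

theorem Sp_comm [Finite G] {H : Subgroup G} (hH : Group.IsNilpotent H) {p r : ℕ}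
    [Fact p.Prime] [Fact r.Prime] (hpr : p ≠ r) {x y : G} (hx : x ∈ Sp H p)
    (hy : y ∈ Sp H r) : x * y = y * x := by
  rw [mem_Sp hH] at hx hy
  exact comm_of_pel hH hpr hx.1 hy.1 hx.2 hy.2

theorem normalizer_le_normalizer_Sp [Finite G] {H : Subgroup G} (hH : Group.IsNilpotent H)
    (p : ℕ) [Fact p.Prime] :
    Subgroup.normalizer (H : Set G) ≤ Subgroup.normalizer (Sp H p : Set G) := by
  intro g hg
  apply mem_normalizer_of_forall
  intro x hx
  rw [mem_Sp hH] at hx ⊢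
  refine ⟨conj_mem_of_mem_normalizer hg hx.1, ?_⟩
  obtain ⟨n, hn⟩ := hx.2
  exact ⟨n, by rw [conj_pow, hn, mul_one, mul_inv_cancel]⟩

theorem le_normalizer_Sp [Finite G] {H : Subgroup G} (hH : Group.IsNilpotent H) (p : ℕ)
    [Fact p.Prime] : H ≤ Subgroup.normalizer (Sp H p : Set G) :=
  Subgroup.le_normalizer.trans (normalizer_le_normalizer_Sp hH p)

theorem Sp_not_dvd_index [Finite G] {H K : Subgroup G} (c : Cfg H K) {p : ℕ} [Fact p.Prime]
    (hp : p ∣ Nat.card H) : ¬ p ∣ (Sp H p).index := by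
  rw [← Subgroup.relIndex_mul_index (Sp_le H p), c.index_H]
  intro h
  rcases (Nat.Prime.dvd_mul Fact.out).mp h with h1 | h1
  · have h2 : (Sp H p).subgroupOf H = ((Classical.arbitrary (Sylow p H) : Sylow p H) : Subgroup H) :=
      Subgroup.comap_map_eq_self_of_injective H.subtype_injective _
    have h3 : ¬ p ∣ ((Classical.arbitrary (Sylow p H) : Sylow p H) : Subgroup H).index :=
      Sylow.not_dvd_index _
    apply h3
    rw [← h2]
    exact h1
  · exact (Nat.Prime.one_lt Fact.out).ne' (Nat.eq_one_of_dvd_coprimes c.cop hp h1)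

theorem Sp_hall [Finite G] {H K : Subgroup G} (c : Cfg H K) {p : ℕ} [Fact p.Prime]
    (hp : p ∣ Nat.card H) : (Nat.card (Sp H p)).Coprime (Sp H p).index := by
  rw [card_Sp]
  exact Nat.Coprime.pow_left _
    ((Nat.Prime.coprime_iff_not_dvd Fact.out).mpr (Sp_not_dvd_index c hp))

theorem Sp_hall' [Finite G] {H K : Subgroup G} (c : Cfg H K) (p : ℕ) [Fact p.Prime] :
    (Nat.card (Sp H p)).Coprime (Sp H p).index := by
  by_cases hp : p ∣ Nat.card H
  · exact Sp_hall c hp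
  · rw [card_Sp, Nat.factorization_eq_zero_of_not_dvd hp, pow_zero]
    exact Nat.coprime_one_left _

theorem le_of_not_dvd_index [Finite G] {p : ℕ} [Fact p.Prime] {S R : Subgroup G}
    (hR : IsPGroup p R) (hSR : S ≤ R) (hS : ¬ p ∣ S.index) : R ≤ S := by
  rw [← Subgroup.relIndex_eq_one]
  obtain ⟨j, hj⟩ := IsPGroup.iff_card.mp hR
  have h1 : S.relIndex R ∣ p ^ j := hj ▸ Subgroup.relIndex_dvd_card S R
  obtain ⟨i, -, hi'⟩ := (Nat.dvd_prime_pow Fact.out).mp h1
  rcases Nat.eq_zero_or_pos i with h0 | h0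
  · rw [hi', h0, pow_zero]
  · exfalso
    apply hS
    have h2 : p ∣ S.relIndex R := by
      rw [hi']
      exact dvd_pow_self p h0.ne'
    exact h2.trans (Subgroup.relIndex_dvd_index_of_le hSR)

theorem Sp_max [Finite G] {H K : Subgroup G} (c : Cfg H K) {p : ℕ} [Fact p.Prime]
    (hp : p ∣ Nat.card H) {R : Subgroup G} (hR : IsPGroup p R) (h : Sp H p ≤ R) :
    R ≤ Sp H p :=
  le_of_not_dvd_index hR h (Sp_not_dvd_index c hp)

theorem le_Sp_of_normalized [Finite G] {H K : Subgroup G} (c : Cfg H K) {p : ℕ}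
    [Fact p.Prime] (hp : p ∣ Nat.card H) {U : Subgroup G} (hU : IsPGroup p U)
    (hN : Sp H p ≤ Subgroup.normalizer (U : Set G)) : U ≤ Sp H p := by
  have h1 : IsPGroup p (U ⊔ Sp H p : Subgroup G) :=
    IsPGroup.to_sup_of_normal_left' hU (Sp_isPGroup H p) hN
  exact le_sup_left.trans (Sp_max c hp h1 le_sup_right)

theorem central_of_central_Sp [Finite G] {H : Subgroup G} (hH : Group.IsNilpotent H) {p : ℕ}
    [Fact p.Prime] {a : G} (ha : a ∈ Sp H p) (hc : ∀ y ∈ Sp H p, y * a = a * y) :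
    ∀ y ∈ H, y * a = a * y := by
  have h1 : H ≤ Subgroup.centralizer ({a} : Set G) := by
    apply le_of_pel
    intro q _ x hx hxq
    rw [Subgroup.mem_centralizer_iff]
    intro b hb
    rw [Set.mem_singleton_iff] at hb
    rw [hb]
    by_cases hqp : q = p
    · rw [hqp] at hxq
      exact (hc x ((mem_Sp hH).mpr ⟨hx, hxq⟩)).symm
    · exact (comm_of_pel hH hqp hx (Sp_le H p ha) hxq ((mem_Sp hH).mp ha).2).symm
  intro y hy
  exact (Subgroup.mem_centralizer_iff.mp (h1 hy) a rfl).symm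

theorem exists_central [Finite G] {H : Subgroup G} (hH : Group.IsNilpotent H) {p : ℕ}
    [Fact p.Prime] (hp : p ∣ Nat.card H) :
    ∃ a ∈ Sp H p, a ≠ 1 ∧ ∀ y ∈ H, y * a = a * y := by
  haveI : Nontrivial (Sp H p) := (Subgroup.nontrivial_iff_ne_bot _).mpr (Sp_ne_bot hp)
  haveI := (Sp_isPGroup H p).center_nontrivial
  obtain ⟨z, hz⟩ := exists_ne (1 : Subgroup.center (Sp H p))
  refine ⟨((z : Sp H p) : G), (z : Sp H p).2, ?_, ?_⟩
  · intro h
    exact hz (Subtype.ext (Subtype.ext h))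
  · apply central_of_central_Sp hH (z : Sp H p).2
    intro y hy
    exact congrArg Subtype.val (Subgroup.mem_center_iff.mp z.2 ⟨y, hy⟩)

theorem comm_of_coprime_order [Finite G] {H : Subgroup G} (hH : Group.IsNilpotent H) {r : ℕ}
    [Fact r.Prime] {y z : G} (hy : y ∈ H) (hz : z ∈ H) (hzr : ∃ n : ℕ, z ^ r ^ n = 1)
    (hcop : (orderOf y).Coprime r) : y * z = z * y := by
  have h1 : Subgroup.zpowers y ≤ Subgroup.centralizer ({z} : Set G) := by
    apply le_of_pel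
    intro q _ x hx hxq
    rw [Subgroup.mem_centralizer_iff]
    intro b hb
    rw [Set.mem_singleton_iff] at hb
    rw [hb]
    have hxH : x ∈ H := (Subgroup.zpowers_le.mpr hy) hx
    by_cases hqr : q = r
    · rw [hqr] at hxq
      obtain ⟨n, hn⟩ := hxq
      have h2 : x ^ orderOf y = 1 := by
        obtain ⟨k, rfl⟩ := Subgroup.mem_zpowers_iff.mp hx
        rw [← zpow_natCast, ← zpow_mul, mul_comm, zpow_mul, zpow_natCast, pow_orderOf_eq_one,
          one_zpow]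
      have h3 : x = 1 := eq_one_of_pow_coprime (Nat.Coprime.pow_right n hcop) h2 hn
      rw [h3, mul_one, one_mul]
    · exact (comm_of_pel hH hqr hxH hz hxq hzr).symm
  exact (Subgroup.mem_centralizer_iff.mp (h1 (Subgroup.mem_zpowers y)) z rfl).symm

theorem Sp_le_centralizer [Finite G] {H : Subgroup G} (hH : Group.IsNilpotent H) {r s : ℕ}
    [Fact r.Prime] [Fact s.Prime] (hsr : s ≠ r) {U : Subgroup G} (hU : U ≤ Sp H r) :
    Sp H s ≤ Subgroup.centralizer (U : Set G) := by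
  intro x hx
  rw [Subgroup.mem_centralizer_iff]
  intro u hu
  exact (Sp_comm hH hsr hx (hU hu)).symm

theorem le_normalizer_of_le_Sp [Finite G] {H : Subgroup G} (hH : Group.IsNilpotent H) {r : ℕ}
    [Fact r.Prime] {U : Subgroup G} (hU : U ≤ Sp H r)
    (hN : Sp H r ≤ Subgroup.normalizer (U : Set G)) : H ≤ Subgroup.normalizer (U : Set G) := by
  apply le_of_pel
  intro q _ x hx hxq
  by_cases hqr : q = r
  · rw [hqr] at hxq
    exact hN ((mem_Sp hH).mpr ⟨hx, hxq⟩)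
  · apply Subgroup.centralizer_le_normalizer
    rw [Subgroup.mem_centralizer_iff]
    intro u hu
    have hu' := (mem_Sp hH).mp (hU hu)
    exact (comm_of_pel hH hqr hx hu'.1 hxq hu'.2).symm

theorem Sp_le_cent [Finite G] {H : Subgroup G} (hH : Group.IsNilpotent H) {p r : ℕ}
    [Fact p.Prime] [Fact r.Prime] (hrp : r ≠ p) {u : G} (hu : u ∈ H)
    (hup : ∃ n : ℕ, u ^ p ^ n = 1) : Sp H r ≤ Subgroup.centralizer ({u} : Set G) := by
  intro y hy
  rw [Subgroup.mem_centralizer_iff]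
  intro b hb
  rw [Set.mem_singleton_iff] at hb
  rw [hb]
  have hy' := (mem_Sp hH).mp hy
  exact comm_of_pel hH (Ne.symm hrp) hu hy'.1 hup hy'.2

end SylowPart

end Cfsg.Agent.Lib.Helper1.KW
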