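import Mathlib
import Cfsg.Agent.Lib.Helper1.KWBasic
import Cfsg.Agent.Lib.Helper2.CharBurnside
import Cfsg.Agent.S0562
import Cfsg.Agent.S0566
import Cfsg.Agent.S0581

set_option autoImplicit false
set_option linter.style.haveILetI false

/-! Products of two nilpotent subgroups of coprime orders: the minimal counterexample,
first steps. -/

namespace Cfsg.Agent.Lib.Helper1.KW

open Pointwise

universe u

/-- a minimal counterexample to the coprime nilpotent product theorem -/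
structure MC (G : Type u) [Group G] [Finite G] : Prop where
  ih : ∀ (X : Type u) [Group X] [Finite X], Nat.card X < Nat.card G →
    ∀ A B : Subgroup X, Cfg A B → Group.IsSolvable X
  ns : ¬ Group.IsSolvable G

section Steps

variable {G : Type u} [Group G] [Finite G] {H K : Subgroup G}

theorem MC.solvable_of_fac (m : MC G) (c : Cfg H K) {L : Subgroup G} (hL : L ≠ ⊤)
    (hfac : ∀ l ∈ L, ∃ h ∈ H ⊓ L, ∃ k ∈ K ⊓ L, l = h * k) : Group.IsSolvable L := by
  apply m.ih L _ _ _ (c.sub hfac)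
  exact lt_of_le_of_ne (Subgroup.card_le_card_group L)
    (fun h => hL ((Subgroup.card_eq_iff_eq_top L).mp h))

theorem MC.eq_top_of_normal (m : MC G) (c : Cfg H K) {N : Subgroup G} (hN : N.Normal)
    (hN1 : N ≠ ⊥) : N = ⊤ := by
  by_contra hNt
  apply m.ns
  have hfacN : ∀ l ∈ N, ∃ h ∈ H ⊓ N, ∃ k ∈ K ⊓ N, l = h * k :=
    fac_of_normalized c.cop (L := ⊤)
      (fun l _ => by
        obtain ⟨h, hh, k, hk, e⟩ := c.fac l
        exact ⟨h, Subgroup.mem_inf.mpr ⟨hh, Subgroup.mem_top h⟩, k,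
          Subgroup.mem_inf.mpr ⟨hk, Subgroup.mem_top k⟩, e⟩)
      le_top (Subgroup.normalizer_eq_top_iff.mpr hN).ge
  haveI hNs : Group.IsSolvable N := m.solvable_of_fac c hNt hfacN
  haveI hQs : Group.IsSolvable (G ⧸ N) := by
    apply m.ih (G ⧸ N) _ (H.map (QuotientGroup.mk' N)) (K.map (QuotientGroup.mk' N))
      (c.map (QuotientGroup.mk' N) (QuotientGroup.mk'_surjective N))
    have h1 : Nat.card (G ⧸ N) = N.index := (Subgroup.index_eq_card N).symm
    have h2 := Subgroup.index_mul_card N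
    have h3 : 1 < Nat.card N := (Subgroup.one_lt_card_iff_ne_bot N).mpr hN1
    have h4 : 0 < N.index := Nat.pos_of_ne_zero Subgroup.index_ne_zero_of_finite
    rw [h1, ← h2]
    nlinarith
  exact Group.isSolvable_of_ker_le_range N.subtype (QuotientGroup.mk' N)
    (by rw [QuotientGroup.ker_mk', Subgroup.range_subtype])

theorem MC.not_comm (m : MC G) : ¬ ∀ a b : G, a * b = b * a :=
  fun h => m.ns (Group.isSolvable_of_comm h)

theorem MC.isSimple (m : MC G) (c : Cfg H K) : IsSimpleGroup G := by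
  haveI : Nontrivial G := by
    by_contra hnt
    rw [not_nontrivial_iff_subsingleton] at hnt
    exact m.not_comm (fun a b => Subsingleton.elim _ _)
  exact ⟨fun N hN => by
    by_cases h : N = ⊥
    · exact Or.inl h
    · exact Or.inr (m.eq_top_of_normal c hN h)⟩

theorem MC.eq_one_of_central (m : MC G) (c : Cfg H K) {z : G} (hz : ∀ g : G, g * z = z * g) :
    z = 1 := by
  by_contra hz1
  have h1 : Subgroup.center G = ⊤ := m.eq_top_of_normal c inferInstance (by
    intro h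
    have h2 : z ∈ Subgroup.center G := Subgroup.mem_center_iff.mpr hz
    rw [h, Subgroup.mem_bot] at h2
    exact hz1 h2)
  apply m.not_comm
  intro a b
  have h3 : b ∈ Subgroup.center G := by
    rw [h1]
    exact Subgroup.mem_top b
  exact Subgroup.mem_center_iff.mp h3 a

theorem MC.H_ne_top (m : MC G) (c : Cfg H K) : H ≠ ⊤ := by
  intro h
  subst h
  apply m.ns
  haveI := c.nH
  haveI : Group.IsNilpotent G :=
    Group.nilpotent_of_surjective (Subgroup.topEquiv (G := G)).toMonoidHom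
      (Subgroup.topEquiv (G := G)).surjective
  exact IsNilpotent.to_isSolvable

theorem MC.H_ne_bot (m : MC G) (c : Cfg H K) : H ≠ ⊥ := by
  intro h
  apply m.H_ne_top c.symm
  rw [eq_top_iff]
  intro g _
  obtain ⟨a, ha, k, hk, rfl⟩ := c.fac g
  rw [h, Subgroup.mem_bot] at ha
  rw [ha, one_mul]
  exact hk

/-- `|H|` is not a prime power -/
theorem MC.exists_prime_ne (m : MC G) (c : Cfg H K) (p : ℕ) :
    ∃ r : ℕ, r.Prime ∧ r ≠ p ∧ r ∣ Nat.card H := by
  by_contra hcon
  push Not at hcon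
  have hH1 : Nat.card H ≠ 1 := fun h => m.H_ne_bot c (Subgroup.card_eq_one.mp h)
  obtain ⟨p', hp', hp'd⟩ := Nat.exists_prime_and_dvd hH1
  have hpp : p' = p := by
    by_contra hne
    exact hcon p' hp' hne hp'd
  subst hpp
  have hpow : Nat.card H = p' ^ (Nat.card H).primeFactorsList.length :=
    Nat.eq_prime_pow_of_unique_prime_dvd Nat.card_pos.ne' (fun {d} hd hdd => by
      by_contra hne
      exact hcon d hd hne hdd)
  obtain ⟨z, hz, hz1, hzc⟩ := exists_central_ne_one c.nK (m.H_ne_bot c.symm)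
  have hle : K ≤ Subgroup.centralizer ({z} : Set G) := by
    intro k hk
    rw [Subgroup.mem_centralizer_iff]
    intro b hb
    rw [Set.mem_singleton_iff] at hb
    rw [hb]
    exact (hzc k hk).symm
  have hdvd : (Subgroup.centralizer ({z} : Set G)).index ∣ K.index :=
    Subgroup.index_dvd_of_le hle
  rw [c.symm.index_H, hpow] at hdvd
  obtain ⟨i, -, hi⟩ := (Nat.dvd_prime_pow hp').mp hdvd
  haveI : IsSimpleGroup G := m.isSimple c
  exact Helper2.not_simple_of_prime_power_class m.not_comm p' i hp' z hz1 hi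

theorem fac_normalizer (c : Cfg H K) {A B : Subgroup G} (hA : A ≤ H)
    (hAn : H ≤ Subgroup.normalizer (A : Set G)) (hB : B ≤ K)
    (hBn : K ≤ Subgroup.normalizer (B : Set G)) :
    ∀ l ∈ Subgroup.normalizer ((A ⊔ B : Subgroup G) : Set G),
      ∃ h ∈ H ⊓ Subgroup.normalizer ((A ⊔ B : Subgroup G) : Set G),
        ∃ k ∈ K ⊓ Subgroup.normalizer ((A ⊔ B : Subgroup G) : Set G), l = h * k := by
  intro l hl
  obtain ⟨h, hh, k, hk, e⟩ := Cfsg.Agent.S0562.result H K A B c.fac hA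
    ((Subgroup.normal_subgroupOf_iff_le_normalizer hA).mpr hAn) hB
    ((Subgroup.normal_subgroupOf_iff_le_normalizer hB).mpr hBn) l hl
  obtain ⟨hh1, hh2⟩ := Subgroup.mem_inf.mp hh
  obtain ⟨hk1, hk2⟩ := Subgroup.mem_inf.mp hk
  exact ⟨h, Subgroup.mem_inf.mpr ⟨hh2, hh1⟩, k, Subgroup.mem_inf.mpr ⟨hk2, hk1⟩, e⟩

/-- normalised subgroups of the two factors never permute to a proper subgroup -/
theorem MC.kc (m : MC G) (c : Cfg H K) {A B S : Subgroup G}
    (hA : A ≤ H) (hAn : H ≤ Subgroup.normalizer (A : Set G)) (hB : B ≤ K)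
    (hBn : K ≤ Subgroup.normalizer (B : Set G)) (hA1 : A ≠ ⊥) (hB1 : B ≠ ⊥)
    (hS : (S : Set G) = (A : Set G) * (B : Set G)) (hST : S ≠ ⊤) : False := by
  have key := Cfsg.Agent.S0566.result A B hA1 hB1 (by
    intro x
    obtain ⟨h, hh, k, hk, rfl⟩ := c.fac x
    refine ⟨MulAut.conj h • S, ?_, ?_⟩
    · intro e
      apply hST
      have h1 : Nat.card (MulAut.conj h • S : Subgroup G) = Nat.card S := card_conj_smul h S
      rw [e, Subgroup.card_top] at h1
      exact (Subgroup.card_eq_iff_eq_top S).mp h1.symm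
    · ext y
      constructor
      · intro hy
        have hy' : h⁻¹ * y * h ∈ (S : Set G) := (mem_conj_smul_iff h y S).mp hy
        rw [hS] at hy'
        obtain ⟨a, ha, b, hb, hab⟩ := hy'
        refine ⟨h * a * h⁻¹, conj_mem_of_mem_normalizer (hAn hh) ha, h * b * h⁻¹, ?_, ?_⟩
        · show h * b * h⁻¹ ∈ MulAut.conj (h * k) • B
          rw [mem_conj_smul_iff]
          have h2 : (h * k)⁻¹ * (h * b * h⁻¹) * (h * k) = k⁻¹ * b * k := by group
          rw [h2]
          exact conj_inv_mem_of_mem_normalizer (hBn hk) hb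
        · have hab' : a * b = h⁻¹ * y * h := hab
          show h * a * h⁻¹ * (h * b * h⁻¹) = y
          have h3 : h * a * h⁻¹ * (h * b * h⁻¹) = h * (a * b) * h⁻¹ := by group
          rw [h3, hab']
          group
      · rintro ⟨a, ha, b', hb', rfl⟩
        have hb'' : (h * k)⁻¹ * b' * (h * k) ∈ B := (mem_conj_smul_iff _ _ _).mp hb'
        show a * b' ∈ MulAut.conj h • S
        rw [mem_conj_smul_iff]
        have h1 : h⁻¹ * (a * b') * h ∈ (S : Set G) := by
          rw [hS]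
          refine ⟨h⁻¹ * a * h, conj_inv_mem_of_mem_normalizer (hAn hh) ha, h⁻¹ * b' * h, ?_,
            by group⟩
          have h2 : h⁻¹ * b' * h = k * ((h * k)⁻¹ * b' * (h * k)) * k⁻¹ := by group
          rw [h2]
          exact conj_mem_of_mem_normalizer (hBn hk) hb''
        exact h1)
  obtain ⟨N, hN, hNt, hAB⟩ := key
  have hNb : N = ⊥ := by
    by_contra hne
    exact hNt (m.eq_top_of_normal c hN hne)
  rw [hNb] at hAB
  rcases hAB with h | h
  · exact hA1 (le_bot_iff.mp h)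
  · exact hB1 (le_bot_iff.mp h)

theorem MC.sup_eq_top_of_normalizer (m : MC G) (c : Cfg H K) {A B : Subgroup G} (hA1 : A ≠ ⊥)
    (hL : Subgroup.normalizer ((A ⊔ B : Subgroup G) : Set G) = ⊤) : A ⊔ B = ⊤ :=
  m.eq_top_of_normal c (Subgroup.normalizer_eq_top_iff.mp hL)
    (fun h => hA1 (le_bot_iff.mp (h ▸ le_sup_left)))

/-- step 2 -/
theorem MC.Sp_sup_Sp (m : MC G) (c : Cfg H K) {p q : ℕ} [Fact p.Prime] [Fact q.Prime]
    (hp : p ∣ Nat.card H) (hq : q ∣ Nat.card K) : Sp H p ⊔ Sp K q = ⊤ := by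
  by_cases hL : Subgroup.normalizer ((Sp H p ⊔ Sp K q : Subgroup G) : Set G) = ⊤
  · exact m.sup_eq_top_of_normalizer c (Sp_ne_bot hp) hL
  · exfalso
    have hfac := fac_normalizer c (Sp_le H p) (le_normalizer_Sp c.nH p) (Sp_le K q)
      (le_normalizer_Sp c.nK q)
    haveI := m.solvable_of_fac c hL hfac
    have hAL : Sp H p ≤ Subgroup.normalizer ((Sp H p ⊔ Sp K q : Subgroup G) : Set G) :=
      le_sup_left.trans Subgroup.le_normalizer
    have hBL : Sp K q ≤ Subgroup.normalizer ((Sp H p ⊔ Sp K q : Subgroup G) : Set G) :=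
      le_sup_right.trans Subgroup.le_normalizer
    obtain ⟨S, hSL, hS⟩ := rel561 H K _ (Sp H p) (Sp K q) hfac (le_inf (Sp_le H p) hAL)
      (inf_le_left.trans (le_normalizer_Sp c.nH p)) (le_inf (Sp_le K q) hBL)
      (inf_le_left.trans (le_normalizer_Sp c.nK q))
      (Nat.Coprime.coprime_dvd_right (Subgroup.relIndex_dvd_index_of_le hAL) (Sp_hall c hp))
      (Nat.Coprime.coprime_dvd_right (Subgroup.relIndex_dvd_index_of_le hBL)
        (Sp_hall c.symm hq))
    exact m.kc c (Sp_le H p) (le_normalizer_Sp c.nH p) (Sp_le K q) (le_normalizer_Sp c.nK q)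
      (Sp_ne_bot hp) (Sp_ne_bot hq) hS (fun h => hL (top_le_iff.mp (h ▸ hSL)))

/-- step 3 -/
theorem MC.f4 (m : MC G) (c : Cfg H K) {p q : ℕ} [Fact p.Prime] [Fact q.Prime]
    (hp : p ∣ Nat.card H) {V : Subgroup G} (hV : V ≤ Sp K q) (hV1 : V ≠ ⊥)
    (hN : Sp H p ≤ Subgroup.normalizer (V : Set G)) : False := by
  obtain ⟨s, hs, hsq, hsd⟩ := m.exists_prime_ne c.symm q
  haveI : Fact s.Prime := ⟨hs⟩
  have h1 : Sp K s ≤ Subgroup.normalizer (V : Set G) :=
    (Sp_le_centralizer c.nK hsq hV).trans (Subgroup.centralizer_le_normalizer _)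
  have h2 : Subgroup.normalizer (V : Set G) = ⊤ := by
    rw [eq_top_iff, ← m.Sp_sup_Sp c hp hsd]
    exact sup_le hN h1
  have h3 : V = ⊤ := m.eq_top_of_normal c (Subgroup.normalizer_eq_top_iff.mp h2) hV1
  apply m.H_ne_top c.symm
  rw [eq_top_iff, ← h3]
  exact hV.trans (Sp_le K q)

/-- step 3, for arbitrary `t`-subgroups with `t ∣ |K|` -/
theorem MC.f4' (m : MC G) (c : Cfg H K) {p t : ℕ} [Fact p.Prime] [Fact t.Prime]
    (hp : p ∣ Nat.card H) (ht : t ∣ Nat.card K) {V : Subgroup G} (hV : IsPGroup t V)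
    (hV1 : V ≠ ⊥) (hN : Sp H p ≤ Subgroup.normalizer (V : Set G)) : False := by
  obtain ⟨x, hx⟩ := Cfsg.Agent.S0581.result K V c.nK
    (by rw [c.symm.index_H]; exact c.cop.symm) (by
      intro p' hp' hp'd
      obtain ⟨j, hj⟩ := IsPGroup.iff_card.mp hV
      rw [hj] at hp'd
      have h1 := (Nat.prime_dvd_prime_iff_eq hp' Fact.out).mp (hp'.dvd_of_dvd_pow hp'd)
      rw [h1]
      exact ht)
  have c' : Cfg H (MulAut.conj x • K) := c.conj_right x
  refine m.f4 c' hp (q := t) (V := V) ?_ hV1 hN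
  intro v hv
  rw [mem_Sp c'.nK]
  exact ⟨hx hv, pel_of_isPGroup hV hv⟩

/-- a nontrivial subgroup of `Sp H r` normalised by `Sp H r` and by `K ∩ L`, for a proper
factorised subgroup `L ≥ Sp H r` -/
theorem MC.exists_normal_in_Sp (m : MC G) (c : Cfg H K) {r : ℕ} [Fact r.Prime]
    (hr : r ∣ Nat.card H) {L : Subgroup G} (hL : L ≠ ⊤)
    (hfac : ∀ l ∈ L, ∃ h ∈ H ⊓ L, ∃ k ∈ K ⊓ L, l = h * k) (hAL : Sp H r ≤ L) :
    ∃ U : Subgroup G, U ≤ Sp H r ∧ U ≠ ⊥ ∧ Sp H r ≤ Subgroup.normalizer (U : Set G) ∧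
      K ⊓ L ≤ Subgroup.normalizer (U : Set G) := by
  haveI : Group.IsSolvable L := m.solvable_of_fac c hL hfac
  have hKL := hall_inf c hfac
  obtain ⟨X, hXL, hX⟩ := rel561 H K L (Sp H r) (K ⊓ L) hfac (le_inf (Sp_le H r) hAL)
    (inf_le_left.trans (le_normalizer_Sp c.nH r)) le_rfl Subgroup.le_normalizer
    (Nat.Coprime.coprime_dvd_right (Subgroup.relIndex_dvd_index_of_le hAL) (Sp_hall c hr)) hKL
  have hSX : Sp H r ≤ X := by
    intro a ha
    have h1 : a ∈ (X : Set G) := by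
      rw [hX]
      exact ⟨a, ha, 1, Subgroup.one_mem _, mul_one a⟩
    exact h1
  have hKX : K ⊓ L ≤ X := by
    intro b hb
    have h1 : b ∈ (X : Set G) := by
      rw [hX]
      exact ⟨1, Subgroup.one_mem _, b, hb, one_mul b⟩
    exact h1
  haveI : Group.IsSolvable X := isSolvable_of_le hXL
  have hX1 : X ≠ ⊥ := fun h => Sp_ne_bot hr (le_bot_iff.mp (h ▸ hSX))
  obtain ⟨t, ht, U, hUX, hXU, hU, hU1⟩ := exists_normal_pgroup_sub X hX1
  haveI : Fact t.Prime := ⟨ht⟩
  by_cases htK : t ∣ Nat.card K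
  · exact (m.f4' c hr htK hU hU1 (hSX.trans hXU)).elim
  · have hcop : (Nat.card (Sp H r)).Coprime (Nat.card (K ⊓ L : Subgroup G)) := by
      rw [card_Sp]
      apply Nat.Coprime.pow_left
      rw [Nat.Prime.coprime_iff_not_dvd Fact.out]
      intro h
      exact (Nat.Prime.one_lt (Fact.out : r.Prime)).ne'
        (Nat.eq_one_of_dvd_coprimes c.cop hr (h.trans (Subgroup.card_dvd_of_le inf_le_left)))
    have hcardX := card_prod_coprime _ _ _ hX hcop
    have htX : t ∣ Nat.card X := (prime_dvd_card_of_isPGroup hU hU1).trans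
      (Subgroup.card_dvd_of_le hUX)
    rw [hcardX] at htX
    have htr : t = r := by
      rcases (Nat.Prime.dvd_mul ht).mp htX with h | h
      · rw [card_Sp] at h
        exact (Nat.prime_dvd_prime_iff_eq ht Fact.out).mp (ht.dvd_of_dvd_pow h)
      · exact (htK (h.trans (Subgroup.card_dvd_of_le inf_le_left))).elim
    subst htr
    exact ⟨U, le_Sp_of_normalized c hr hU (hSX.trans hXU), hU1, hSX.trans hXU, hKX.trans hXU⟩

/-- step 4 -/
theorem MC.gp (m : MC G) (c : Cfg H K) {r : ℕ} [Fact r.Prime] (hr : r ∣ Nat.card H)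
    {B : Subgroup G} (hB : B ≤ K) (hBn : K ≤ Subgroup.normalizer (B : Set G)) (hB1 : B ≠ ⊥) :
    Sp H r ⊔ B = ⊤ := by
  by_cases hL : Subgroup.normalizer ((Sp H r ⊔ B : Subgroup G) : Set G) = ⊤
  · exact m.sup_eq_top_of_normalizer c (Sp_ne_bot hr) hL
  · exfalso
    have hfac := fac_normalizer c (Sp_le H r) (le_normalizer_Sp c.nH r) hB hBn
    have hAL : Sp H r ≤ Subgroup.normalizer ((Sp H r ⊔ B : Subgroup G) : Set G) :=
      le_sup_left.trans Subgroup.le_normalizer
    have hBL : B ≤ Subgroup.normalizer ((Sp H r ⊔ B : Subgroup G) : Set G) :=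
      le_sup_right.trans Subgroup.le_normalizer
    obtain ⟨U, hUS, hU1, hSU, hKU⟩ := m.exists_normal_in_Sp c hr hL hfac hAL
    have hHU : H ≤ Subgroup.normalizer (U : Set G) := le_normalizer_of_le_Sp c.nH hUS hSU
    have hBU : B ≤ Subgroup.normalizer (U : Set G) := (le_inf hB hBL).trans hKU
    refine m.kc c (hUS.trans (Sp_le H r)) hHU hB hBn hU1 hB1
      (Subgroup.coe_mul_of_right_le_normalizer_left U B hBU) ?_
    intro h
    apply hL
    rw [eq_top_iff, ← h]
    exact sup_le (hUS.trans hAL) hBL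

/-- one half of step 5 -/
theorem MC.sup_aux (m : MC G) (c : Cfg H K) {A B : Subgroup G} (hA : A ≤ H)
    (hAn : H ≤ Subgroup.normalizer (A : Set G)) (hB : B ≤ K)
    (hBn : K ≤ Subgroup.normalizer (B : Set G)) (hB1 : B ≠ ⊥)
    {t : ℕ} [Fact t.Prime] {U : Subgroup G} (hU : IsPGroup t U) (hU1 : U ≠ ⊥)
    (hUL : U ≤ Subgroup.normalizer ((A ⊔ B : Subgroup G) : Set G))
    (hLU : Subgroup.normalizer ((A ⊔ B : Subgroup G) : Set G) ≤
      Subgroup.normalizer (U : Set G))
    (htK : ¬ t ∣ Nat.card K) : False := by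
  have hfac := fac_normalizer c hA hAn hB hBn
  have hUH : U ≤ H := npi c.cop hfac hUL hLU Fact.out hU htK
  have hUS : U ≤ Sp H t := fun u hu => (mem_Sp c.nH).mpr ⟨hUH hu, pel_of_isPGroup hU hu⟩
  obtain ⟨r, hr, hrt, hrd⟩ := m.exists_prime_ne c t
  haveI : Fact r.Prime := ⟨hr⟩
  have h1 : Sp H r ≤ Subgroup.normalizer (U : Set G) :=
    (Sp_le_centralizer c.nH hrt hUS).trans (Subgroup.centralizer_le_normalizer _)
  have h2 : B ≤ Subgroup.normalizer (U : Set G) :=
    (le_sup_right.trans Subgroup.le_normalizer).trans hLU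
  have h3 : Subgroup.normalizer (U : Set G) = ⊤ := by
    rw [eq_top_iff, ← m.gp c hrd hB hBn hB1]
    exact sup_le h1 h2
  have h4 : U = ⊤ := m.eq_top_of_normal c (Subgroup.normalizer_eq_top_iff.mp h3) hU1
  apply m.H_ne_top c
  rw [eq_top_iff, ← h4]
  exact hUH

/-- step 5 -/
theorem MC.sup_eq_top (m : MC G) (c : Cfg H K) {A B : Subgroup G} (hA : A ≤ H)
    (hAn : H ≤ Subgroup.normalizer (A : Set G)) (hB : B ≤ K)
    (hBn : K ≤ Subgroup.normalizer (B : Set G)) (hA1 : A ≠ ⊥) (hB1 : B ≠ ⊥) : A ⊔ B = ⊤ := by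
  by_cases hL : Subgroup.normalizer ((A ⊔ B : Subgroup G) : Set G) = ⊤
  · exact m.sup_eq_top_of_normalizer c hA1 hL
  · exfalso
    have hfac := fac_normalizer c hA hAn hB hBn
    haveI : Group.IsSolvable (Subgroup.normalizer ((A ⊔ B : Subgroup G) : Set G)) :=
      m.solvable_of_fac c hL hfac
    haveI : Group.IsSolvable (A ⊔ B : Subgroup G) := isSolvable_of_le Subgroup.le_normalizer
    have hT1 : A ⊔ B ≠ ⊥ := fun h => hA1 (le_bot_iff.mp (h ▸ le_sup_left))
    obtain ⟨t, ht, U, hUT, hTU, hU, hU1⟩ := exists_char_pgroup_sub (A ⊔ B) hT1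
    haveI : Fact t.Prime := ⟨ht⟩
    by_cases htK : t ∣ Nat.card K
    · have htH : ¬ t ∣ Nat.card H := fun h =>
        (Nat.Prime.one_lt ht).ne' (Nat.eq_one_of_dvd_coprimes c.cop h htK)
      refine m.sup_aux c.symm hB hBn hA hAn hA1 hU hU1 ?_ ?_ htH
      · rw [sup_comm]
        exact hUT.trans Subgroup.le_normalizer
      · rw [sup_comm]
        exact hTU
    · exact m.sup_aux c hA hAn hB hBn hB1 hU hU1 (hUT.trans Subgroup.le_normalizer) hTU htK

/-- step 6: the centraliser of a nontrivial central element of `H` is `H` -/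
theorem MC.cent_le (m : MC G) (c : Cfg H K) {a : G} (ha : a ∈ H) (ha1 : a ≠ 1)
    (hc : ∀ y ∈ H, y * a = a * y) {g : G} (hg : g * a = a * g) : g ∈ H := by
  obtain ⟨h, hh, k, hk, rfl⟩ := c.fac g
  have hka : k * a = a * k := by
    have h1 := hc h hh
    apply mul_left_cancel (a := h)
    rw [← mul_assoc, hg, ← mul_assoc, ← h1, mul_assoc]
  have hsup : Subgroup.zpowers a ⊔ ZS K = ⊤ := by
    apply m.sup_eq_top c (Subgroup.zpowers_le.mpr ha) _ (ZS_le K) (le_normalizer_ZS K)
      (Subgroup.zpowers_ne_bot.mpr ha1) (ZS_ne_bot c.nK (m.H_ne_bot c.symm))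
    intro y hy
    apply Subgroup.centralizer_le_normalizer
    rw [Subgroup.mem_centralizer_iff]
    intro w hw
    obtain ⟨j, rfl⟩ := Subgroup.mem_zpowers_iff.mp hw
    exact ((show Commute y a from hc y hy).zpow_right j).eq.symm
  have hk1 : k = 1 := by
    apply m.eq_one_of_central c
    have hle : Subgroup.zpowers a ⊔ ZS K ≤ Subgroup.centralizer ({k} : Set G) := by
      apply sup_le
      · rw [Subgroup.zpowers_le, Subgroup.mem_centralizer_iff]
        intro b hb
        rw [Set.mem_singleton_iff] at hb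
        rw [hb]
        exact hka
      · intro z hz
        rw [Subgroup.mem_centralizer_iff]
        intro b hb
        rw [Set.mem_singleton_iff] at hb
        rw [hb]
        exact (mem_ZS.mp hz).2 k hk
    rw [hsup] at hle
    intro g'
    exact (Subgroup.mem_centralizer_iff.mp (hle (Subgroup.mem_top g')) k rfl).symm
  rw [hk1, mul_one]
  exact hh

/-- step 7 -/
theorem MC.ti_central (m : MC G) (c : Cfg H K) {a : G} (ha : a ∈ H) (ha1 : a ≠ 1)
    (hc : ∀ y ∈ H, y * a = a * y) {g : G} (hag : a ∈ MulAut.conj g • H) :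
    MulAut.conj g • H = H := by
  have c' : Cfg (MulAut.conj g • H) K := (c.symm.conj_right g).symm
  have h1 : ∀ z ∈ MulAut.conj g • H, (∀ y ∈ MulAut.conj g • H, y * z = z * y) → z ∈ H := by
    intro z _ hzc
    exact m.cent_le c ha ha1 hc (hzc a hag).symm
  have h2 : ∀ z ∈ H, z ≠ 1 → (∀ y ∈ H, y * z = z * y) → z ∈ MulAut.conj g • H := by
    intro z _ _ hzc
    obtain ⟨z', hz', hz'1, hz'c⟩ := exists_central_ne_one c'.nH (m.H_ne_bot c')
    have hz'H : z' ∈ H := h1 z' hz' hz'c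
    exact m.cent_le c' hz' hz'1 hz'c (hzc z' hz'H).symm
  have h3 : MulAut.conj g • H ≤ H := by
    apply le_of_pel
    intro q _ x hx hxq
    obtain ⟨r, hr, hrq, hrd⟩ := m.exists_prime_ne c q
    haveI : Fact r.Prime := ⟨hr⟩
    obtain ⟨b, hb, hb1, hbc⟩ := exists_central c.nH hrd
    have hbH' : b ∈ MulAut.conj g • H := h2 b (Sp_le H r hb) hb1 hbc
    have hxb : x * b = b * x :=
      comm_of_pel c'.nH (Ne.symm hrq) hx hbH' hxq ((mem_Sp c.nH).mp hb).2
    exact m.cent_le c (Sp_le H r hb) hb1 hbc hxb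
  exact Subgroup.eq_of_le_of_card_ge h3 (card_conj_smul g H).ge

end Steps

end Cfsg.Agent.Lib.Helper1.KW
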