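import Mathlib
import Cfsg.Agent.Lib.Helper1.KWMin
import Cfsg.Agent.Lib.Helper1.FrobPC
import Cfsg.Agent.Lib.Helper1.CoprimeSylow

set_option autoImplicit false
set_option linter.style.haveILetI false

/-! Products of two nilpotent subgroups of coprime orders: the factors are TI-subgroups in a
minimal counterexample. -/

namespace Cfsg.Agent.Lib.Helper1.KW

open Pointwise

universe u

section TI

variable {G : Type u} [Group G] [Finite G] {H K : Subgroup G}

/-- step 9: for `x ∈ H ∩ N(K)` nontrivial, `C_K(x) ≤ N(H)` -/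
theorem MC.cent_K_le (m : MC G) (c : Cfg H K) {x : G} (hx : x ∈ H) (hx1 : x ≠ 1)
    (hxN : x ∈ Subgroup.normalizer (K : Set G)) {k : G} (hk : k ∈ K) (hkx : k * x = x * k) :
    k ∈ Subgroup.normalizer (H : Set G) := by
  obtain ⟨p, hp, j, hj1, hjp⟩ := exists_prime_pow_el hx1
  haveI : Fact p.Prime := ⟨hp⟩
  have hx'H : x ^ j ∈ H := pow_mem hx j
  have hx'N : x ^ j ∈ Subgroup.normalizer (K : Set G) := pow_mem hxN j
  have hx'p : ∃ n : ℕ, (x ^ j) ^ p ^ n = 1 := ⟨1, by rw [pow_one]; exact hjp⟩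
  have hx'k : k * x ^ j = x ^ j * k := ((show Commute k x from hkx).pow_right j).eq
  have hfac := fac_centralizer c hx'H hx'N
  have hL : Subgroup.centralizer ({x ^ j} : Set G) ≠ ⊤ := by
    intro h
    apply hj1
    apply m.eq_one_of_central c
    intro g
    have h1 : g ∈ Subgroup.centralizer ({x ^ j} : Set G) := by
      rw [h]
      exact Subgroup.mem_top g
    exact (Subgroup.mem_centralizer_iff.mp h1 (x ^ j) rfl).symm
  obtain ⟨r, hr, hrp, hrd⟩ := m.exists_prime_ne c p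
  haveI : Fact r.Prime := ⟨hr⟩
  have hAL : Sp H r ≤ Subgroup.centralizer ({x ^ j} : Set G) := Sp_le_cent c.nH hrp hx'H hx'p
  obtain ⟨U, hUS, hU1, hSU, hKU⟩ := m.exists_normal_in_Sp c hrd hL hfac hAL
  obtain ⟨a, haU, ha1, hac⟩ := normal_inf_center (Sp_isPGroup H r) hUS hSU hU1
  have hacH : ∀ y ∈ H, y * a = a * y := central_of_central_Sp c.nH (hUS haU) hac
  have hkL : k ∈ K ⊓ Subgroup.centralizer ({x ^ j} : Set G) := by
    refine Subgroup.mem_inf.mpr ⟨hk, ?_⟩
    rw [Subgroup.mem_centralizer_iff]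
    intro b hb
    rw [Set.mem_singleton_iff] at hb
    rw [hb]
    exact hx'k.symm
  have h1 : k * a * k⁻¹ ∈ H := Sp_le H r (hUS (conj_mem_of_mem_normalizer (hKU hkL) haU))
  have h2 : a ∈ MulAut.conj k⁻¹ • H := by
    rw [mem_conj_smul_iff, inv_inv]
    exact h1
  have h3 := m.ti_central c (Sp_le H r (hUS haU)) ha1 hacH h2
  have h4 : k⁻¹ ∈ Subgroup.normalizer (H : Set G) := mem_normalizer_of_conj_smul_eq h3
  have h5 := inv_mem h4
  rw [inv_inv] at h5
  exact h5

/-- for `x ∈ H ∩ N(K)` nontrivial, `C_G(x) ≤ N(H)` -/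
theorem MC.cent_le_normalizer (m : MC G) (c : Cfg H K) {x : G} (hx : x ∈ H) (hx1 : x ≠ 1)
    (hxN : x ∈ Subgroup.normalizer (K : Set G)) :
    Subgroup.centralizer ({x} : Set G) ≤ Subgroup.normalizer (H : Set G) := by
  intro g hg
  obtain ⟨h, hh, k, hk, rfl⟩ := fac_centralizer c hx hxN g hg
  obtain ⟨hh1, -⟩ := Subgroup.mem_inf.mp hh
  obtain ⟨hk1, hk2⟩ := Subgroup.mem_inf.mp hk
  apply mul_mem (Subgroup.le_normalizer hh1)
  exact m.cent_K_le c hx hx1 hxN hk1 (Subgroup.mem_centralizer_iff.mp hk2 x rfl).symm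

/-- step 10, case (ii) -/
theorem MC.cent_case_ii (m : MC G) (c : Cfg H K) {u : G} (hu : u ∈ H) (hu1 : u ≠ 1) {n₁ : G}
    (hX : n₁ ∈ Subgroup.centralizer ({u} : Set G))
    (hN : n₁ ∈ Subgroup.normalizer (H : Set G)) (hH : n₁ ∉ H) :
    Subgroup.centralizer ({u} : Set G) ≤ Subgroup.normalizer (H : Set G) := by
  obtain ⟨y, hy⟩ : ∃ y : G, y = n₁ ^ Nat.card H := ⟨_, rfl⟩
  have hyX : y ∈ Subgroup.centralizer ({u} : Set G) := by
    rw [hy]
    exact pow_mem hX _
  have hyN : y ∈ Subgroup.normalizer (H : Set G) := by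
    rw [hy]
    exact pow_mem hN _
  have hyK : y ^ Nat.card K = 1 := by
    rw [hy, ← pow_mul, c.card]
    exact pow_card_eq_one'
  have hy1 : y ≠ 1 := by
    intro h1
    apply hH
    obtain ⟨h, hh, k, hk, e⟩ := c.fac n₁
    have hkN : k ∈ Subgroup.normalizer (H : Set G) := by
      have h0 : k = h⁻¹ * n₁ := by rw [e]; group
      rw [h0]
      exact mul_mem (inv_mem (Subgroup.le_normalizer hh)) hN
    have h2 := mul_pow_mem H hh hkN (Nat.card H)
    rw [← e, ← hy, h1, one_mul] at h2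
    have h2' := inv_mem h2
    rw [inv_inv] at h2'
    have h3 : k ^ Nat.card H ∈ H ⊓ K := Subgroup.mem_inf.mpr ⟨h2', pow_mem hk _⟩
    rw [c.inf_eq_bot, Subgroup.mem_bot] at h3
    have hk1 : k = 1 := eq_one_of_pow_coprime c.cop h3 (pow_card_of_mem hk)
    rw [e, hk1, mul_one]
    exact hh
  obtain ⟨w, hw⟩ := Cfsg.Agent.S0581.result K (Subgroup.zpowers y) c.nK
    (by rw [c.symm.index_H]; exact c.cop.symm) (by
      intro q _ hqd
      rw [Nat.card_zpowers] at hqd
      exact hqd.trans (orderOf_dvd_of_pow_eq_one hyK))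
  have c' : Cfg H (MulAut.conj w • K) := c.conj_right w
  have hyK' : y ∈ MulAut.conj w • K := hw (Subgroup.mem_zpowers y)
  have huy : u * y = y * u := Subgroup.mem_centralizer_iff.mp hyX u rfl
  have huN : u ∈ Subgroup.normalizer ((MulAut.conj w • K : Subgroup G) : Set G) :=
    m.cent_K_le c'.symm hyK' hy1 hyN hu huy
  exact m.cent_le_normalizer c' hu hu1 huN

/-- the Frobenius condition in `X` -/
theorem MC.frob_aux (m : MC G) (c : Cfg H K) {r : ℕ} [Fact r.Prime] (hrd : r ∣ Nat.card H)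
    {X : Subgroup G} (hSX : Sp H r ≤ X) {a : G} (haS : a ∈ Sp H r)
    (hac : ∀ y ∈ H, y * a = a * y) (hkey : ∀ x ∈ X, x * a * x⁻¹ ∈ H → x ∈ H)
    {U : Subgroup G} (hU : U ≤ Sp H r) {g : G} (hgX : g ∈ X)
    (hgN : g ∈ Subgroup.normalizer (U : Set G)) (hcop : (orderOf g).Coprime r) :
    g ∈ Subgroup.centralizer (U : Set G) := by
  obtain ⟨C, hCdef⟩ : ∃ C : Subgroup G, C = X ⊓ Subgroup.centralizer (U : Set G) := ⟨_, rfl⟩
  obtain ⟨T, hTdef⟩ : ∃ T : Subgroup G, T = Sp H r ⊓ Subgroup.centralizer (U : Set G) :=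
    ⟨_, rfl⟩
  have hCX : C ≤ X := by rw [hCdef]; exact inf_le_left
  have hCU : C ≤ Subgroup.centralizer (U : Set G) := by rw [hCdef]; exact inf_le_right
  have hTS : T ≤ Sp H r := by rw [hTdef]; exact inf_le_left
  have hTC : T ≤ C := by
    rw [hTdef, hCdef]
    exact inf_le_inf_right _ hSX
  have hT : IsPGroup r T := (Sp_isPGroup H r).to_le hTS
  have haT : a ∈ T := by
    rw [hTdef]
    refine Subgroup.mem_inf.mpr ⟨haS, ?_⟩
    rw [Subgroup.mem_centralizer_iff]
    intro w hw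
    exact hac w (Sp_le H r (hU hw))
  have hmax : ∀ R : Subgroup G, R ≤ C → IsPGroup r R → T ≤ R → R ≤ T := by
    intro R hRC hR hTR
    obtain ⟨x, hxX, hx⟩ := sylIn X (Sp H r) R hSX (Sp_isPGroup H r)
      (fun R' _ hR' hle => Sp_max c hrd hR' hle) (hRC.trans hCX) hR
    have h1 : x⁻¹ * a * x ∈ Sp H r := (mem_conj_smul_iff x a _).mp (hx (hTR haT))
    have h2 : x⁻¹ ∈ H := hkey x⁻¹ (inv_mem hxX) (by rw [inv_inv]; exact Sp_le H r h1)
    have h2' : x ∈ H := by
      have h0 := inv_mem h2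
      rw [inv_inv] at h0
      exact h0
    have h3 : x ∈ Subgroup.normalizer (Sp H r : Set G) := le_normalizer_Sp c.nH r h2'
    rw [conj_smul_eq_of_mem_normalizer h3] at hx
    rw [hTdef]
    exact le_inf hx (hRC.trans hCU)
  have hgC : g ∈ Subgroup.normalizer (C : Set G) := by
    apply mem_normalizer_of_forall
    intro y hy
    rw [hCdef] at hy ⊢
    obtain ⟨hy1, hy2⟩ := Subgroup.mem_inf.mp hy
    refine Subgroup.mem_inf.mpr ⟨mul_mem (mul_mem hgX hy1) (inv_mem hgX), ?_⟩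
    rw [Subgroup.mem_centralizer_iff]
    intro w hw
    have hw' : g⁻¹ * w * g ∈ U := conj_inv_mem_of_mem_normalizer hgN hw
    have hyw := Subgroup.mem_centralizer_iff.mp hy2 _ hw'
    have e1 : w * (g * y * g⁻¹) = g * ((g⁻¹ * w * g) * y) * g⁻¹ := by group
    have e2 : g * y * g⁻¹ * w = g * (y * (g⁻¹ * w * g)) * g⁻¹ := by group
    rw [e1, e2, hyw]
  have hgT : MulAut.conj g • T ≤ C := by
    intro y hy
    rw [mem_conj_smul_iff] at hy
    have h0 := conj_mem_of_mem_normalizer hgC (hTC hy)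
    have e : g * (g⁻¹ * y * g) * g⁻¹ = y := by group
    rw [e] at h0
    exact h0
  obtain ⟨c₀, hc₀C, hc₀⟩ := sylIn C T (MulAut.conj g • T) hTC hT
    (fun R' hR'C hR' hle => hmax R' hR'C hR' hle) hgT (isPGroup_conj hT g)
  have hc₀' : MulAut.conj g • T = MulAut.conj c₀ • T :=
    Subgroup.eq_of_le_of_card_ge hc₀ (by rw [card_conj_smul, card_conj_smul])
  obtain ⟨n, hndef⟩ : ∃ n : G, n = c₀⁻¹ * g := ⟨_, rfl⟩
  have hn : n ∈ Subgroup.normalizer (T : Set G) := by
    apply mem_normalizer_of_conj_smul_eq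
    rw [hndef, conj_mul_smul, hc₀', ← conj_mul_smul, inv_mul_cancel, map_one, one_smul]
  have hnX : n ∈ X := by
    rw [hndef]
    exact mul_mem (inv_mem (hCX hc₀C)) hgX
  have hnH : n ∈ H := by
    apply hkey _ hnX
    exact Sp_le H r (hTS (conj_mem_of_mem_normalizer hn haT))
  obtain ⟨e, hedef⟩ : ∃ e : ℕ, e = r ^ (orderOf n).factorization r := ⟨_, rfl⟩
  have hne : (orderOf (n ^ e)).Coprime r := by
    rw [orderOf_pow]
    have hgcd : (orderOf n).gcd e = e := by
      rw [hedef]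
      exact Nat.gcd_eq_right (Nat.ordProj_dvd _ _)
    rw [hgcd, hedef]
    exact (Nat.coprime_ordCompl Fact.out (orderOf_pos n).ne').symm
  have hneC : n ^ e ∈ C := by
    rw [hCdef]
    refine Subgroup.mem_inf.mpr ⟨pow_mem hnX _, ?_⟩
    rw [Subgroup.mem_centralizer_iff]
    intro w hw
    have hw' := (mem_Sp c.nH).mp (hU hw)
    exact (comm_of_coprime_order c.nH (pow_mem hnH _) hw'.1 hw'.2 hne).symm
  have hnC : n ∈ Subgroup.normalizer (C : Set G) := by
    rw [hndef]
    exact mul_mem (inv_mem (Subgroup.le_normalizer hc₀C)) hgC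
  have hg' : g = c₀ * n := by rw [hndef]; group
  have h1 := mul_pow_mem C hc₀C hnC e
  rw [← hg'] at h1
  have hgeC : g ^ e ∈ C := by
    have h0 : g ^ e = (g ^ e * (n ^ e)⁻¹) * n ^ e := by group
    rw [h0]
    exact mul_mem h1 hneC
  have hgC' : g ∈ C := by
    apply mem_of_pow_mem_of_coprime C _ hgeC
    rw [hedef]
    exact Nat.Coprime.pow_right _ hcop
  exact hCU hgC'

/-- step 10, case (i) -/
theorem MC.cent_case_i (m : MC G) (c : Cfg H K) {p : ℕ} [Fact p.Prime] {u : G} (hu : u ∈ H)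
    (hup : ∃ n : ℕ, u ^ p ^ n = 1)
    (hcase : ∀ x ∈ Subgroup.centralizer ({u} : Set G),
      x ∈ Subgroup.normalizer (H : Set G) → x ∈ H) :
    Subgroup.centralizer ({u} : Set G) ≤ H := by
  obtain ⟨X, hXdef⟩ : ∃ X : Subgroup G, X = Subgroup.centralizer ({u} : Set G) := ⟨_, rfl⟩
  rw [← hXdef] at hcase ⊢
  obtain ⟨r, hr, hrp, hrd⟩ := m.exists_prime_ne c p
  haveI : Fact r.Prime := ⟨hr⟩
  have hSX : Sp H r ≤ X := by
    rw [hXdef]
    exact Sp_le_cent c.nH hrp hu hup
  obtain ⟨a, haS, ha1, hac⟩ := exists_central c.nH hrd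
  have hkey : ∀ x ∈ X, x * a * x⁻¹ ∈ H → x ∈ H := by
    intro x hx hxa
    have h2 : a ∈ MulAut.conj x⁻¹ • H := by
      rw [mem_conj_smul_iff, inv_inv]
      exact hxa
    have h3 := m.ti_central c (Sp_le H r haS) ha1 hac h2
    have h4 : x⁻¹ ∈ Subgroup.normalizer (H : Set G) := mem_normalizer_of_conj_smul_eq h3
    have h5 := inv_mem h4
    rw [inv_inv] at h5
    exact hcase x hx h5
  let P : Sylow r X :=
    { toSubgroup := (Sp H r).subgroupOf X
      isPGroup' := (Sp_isPGroup H r).comap_subtype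
      is_maximal' := by
        intro Q hQ hle
        have h1 : Q.map X.subtype ≤ Sp H r := Sp_max c hrd (hQ.map _) (by
          intro s hs
          exact ⟨⟨s, hSX hs⟩, hle (show (⟨s, hSX hs⟩ : X) ∈ (Sp H r).subgroupOf X from hs),
            rfl⟩)
        apply le_antisymm _ hle
        intro y hy
        exact h1 ⟨y, hy, rfl⟩ }
  have hF : FrobCond r X := by
    apply frobCond_of_sylow P
    intro Q hQP g hg hcop
    rw [Subgroup.mem_centralizer_iff]
    intro y hy
    have hU : Q.map X.subtype ≤ Sp H r := by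
      rintro _ ⟨z, hz, rfl⟩
      exact hQP hz
    have hgN : (g : G) ∈ Subgroup.normalizer ((Q.map X.subtype : Subgroup G) : Set G) := by
      apply mem_normalizer_of_forall
      rintro _ ⟨z, hz, rfl⟩
      exact ⟨g * z * g⁻¹, conj_mem_of_mem_normalizer hg hz, rfl⟩
    have h1 := m.frob_aux c hrd hSX haS hac hkey hU g.2 hgN
      (by rw [Subgroup.orderOf_coe]; exact hcop)
    have h2 := Subgroup.mem_centralizer_iff.mp h1 (y : G) ⟨y, hy, rfl⟩
    exact Subtype.ext h2
  have hpi : ∀ q : ℕ, q.Prime → q ∣ Nat.card X → q ∣ Nat.card H := by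
    intro q hq hqX
    by_contra hqH
    haveI : Fact q.Prime := ⟨hq⟩
    have hqK : q ∣ Nat.card K := by
      have h0 : q ∣ Nat.card H * Nat.card K := by
        rw [c.card]
        exact hqX.trans (Subgroup.card_subgroup_dvd_card X)
      exact ((Nat.Prime.dvd_mul hq).mp h0).resolve_left hqH
    have hqr : q ≠ r := fun h => hqH (h ▸ hrd)
    have hcompl := frobCond_isComplement' hF P
    have hYcop := frobCond_pResidual_coprime r (Nat.card X) X le_rfl hF
    obtain ⟨Y, hYdef⟩ : ∃ Y : Subgroup G, Y = (Cfsg.pResidual r X).map X.subtype := ⟨_, rfl⟩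
    have hcardY : Nat.card Y = Nat.card (Cfsg.pResidual r X) := by
      rw [hYdef]
      exact Subgroup.card_map_of_injective X.subtype_injective
    have hqY : q ∣ Nat.card Y := by
      have h1 := hcompl.card_mul_card
      have hP : Nat.card (P : Subgroup X) = Nat.card (Sp H r) :=
        Nat.card_congr (Subgroup.subgroupOfEquivOfLe hSX).toEquiv
      rw [← h1] at hqX
      rcases (Nat.Prime.dvd_mul hq).mp hqX with h | h
      · rw [hcardY]
        exact h
      · exfalso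
        rw [hP, card_Sp] at h
        exact hqr ((Nat.prime_dvd_prime_iff_eq hq Fact.out).mp (hq.dvd_of_dvd_pow h))
    have hSY : Sp H r ≤ Subgroup.normalizer (Y : Set G) := by
      intro s hs
      apply mem_normalizer_of_forall
      rw [hYdef]
      rintro _ ⟨z, hz, rfl⟩
      exact ⟨⟨s, hSX hs⟩ * z * ⟨s, hSX hs⟩⁻¹,
        (pResidual_normal (G := X) r).conj_mem z hz _, rfl⟩
    have hcop' : (Nat.card (Sp H r)).Coprime (Nat.card Y) := by
      rw [card_Sp, hcardY]
      exact Nat.Coprime.pow_left _ hYcop.symm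
    haveI hSnil : Group.IsNilpotent (Sp H r) := (Sp_isPGroup H r).isNilpotent
    haveI hSsol : Group.IsSolvable (Sp H r) := IsNilpotent.to_isSolvable
    obtain ⟨V, hV⟩ := exists_invariant_sylow (Sp H r) Y hSY hcop' (Or.inl hSsol) q
    refine m.f4' c hrd hqK (V.isPGroup'.map Y.subtype) ?_ hV
    intro hbot
    have h1 : Nat.card ((V : Subgroup Y).map Y.subtype) = q ^ (Nat.card Y).factorization q := by
      rw [Subgroup.card_map_of_injective Y.subtype_injective, Sylow.card_eq_multiplicity]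
    rw [hbot, Subgroup.card_bot] at h1
    have h2 : 0 < (Nat.card Y).factorization q :=
      hq.factorization_pos_of_dvd Nat.card_pos.ne' hqY
    have h3 : 1 < q ^ (Nat.card Y).factorization q := Nat.one_lt_pow h2.ne' hq.one_lt
    omega
  obtain ⟨g, hg⟩ := Cfsg.Agent.S0581.result H X c.nH (by rw [c.index_H]; exact c.cop) hpi
  have h5 : MulAut.conj g • H = H :=
    m.ti_central c (Sp_le H r haS) ha1 hac (hg (hSX haS))
  rw [h5] at hg
  exact hg

/-- step 10: centralisers of nontrivial `p`-elements of `H` normalise `H` -/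
theorem MC.cent_pel_le (m : MC G) (c : Cfg H K) {p : ℕ} [Fact p.Prime] {u : G} (hu : u ∈ H)
    (hu1 : u ≠ 1) (hup : ∃ n : ℕ, u ^ p ^ n = 1) :
    Subgroup.centralizer ({u} : Set G) ≤ Subgroup.normalizer (H : Set G) := by
  by_cases hcase : ∀ x ∈ Subgroup.centralizer ({u} : Set G),
      x ∈ Subgroup.normalizer (H : Set G) → x ∈ H
  · exact (m.cent_case_i c hu hup hcase).trans Subgroup.le_normalizer
  · push Not at hcase
    obtain ⟨n₁, hn₁X, hn₁N, hn₁H⟩ := hcase
    exact m.cent_case_ii c hu hu1 hn₁X hn₁N hn₁H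

/-- step 10: `H` is a TI-subgroup -/
theorem MC.ti (m : MC G) (c : Cfg H K) {u : G} (hu : u ∈ H) (hu1 : u ≠ 1) {g : G}
    (hug : u ∈ MulAut.conj g • H) : MulAut.conj g • H = H := by
  obtain ⟨p, hp, j, hj1, hjp⟩ := exists_prime_pow_el hu1
  haveI : Fact p.Prime := ⟨hp⟩
  have hu'H : u ^ j ∈ H := pow_mem hu j
  have hu'g : u ^ j ∈ MulAut.conj g • H := pow_mem hug j
  have hu'p : ∃ n : ℕ, (u ^ j) ^ p ^ n = 1 := ⟨1, by rw [pow_one]; exact hjp⟩
  have c' : Cfg (MulAut.conj g • H) K := (c.symm.conj_right g).symm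
  obtain ⟨r, hr, hrp, hrd⟩ := m.exists_prime_ne c p
  haveI : Fact r.Prime := ⟨hr⟩
  have hXN := m.cent_pel_le c hu'H hj1 hu'p
  have hS1 : Sp H r ≤ Subgroup.centralizer ({u ^ j} : Set G) := Sp_le_cent c.nH hrp hu'H hu'p
  have hS2 : Sp (MulAut.conj g • H) r ≤ Subgroup.centralizer ({u ^ j} : Set G) :=
    Sp_le_cent c'.nH hrp hu'g hu'p
  obtain ⟨x, hxX, hx⟩ := sylIn (Subgroup.centralizer ({u ^ j} : Set G)) (Sp H r)
    (Sp (MulAut.conj g • H) r) hS1 (Sp_isPGroup H r)
    (fun R' _ hR' hle => Sp_max c hrd hR' hle) hS2 (Sp_isPGroup _ r)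
  have hxN : x ∈ Subgroup.normalizer (Sp H r : Set G) :=
    normalizer_le_normalizer_Sp c.nH r (hXN hxX)
  rw [conj_smul_eq_of_mem_normalizer hxN] at hx
  have hrd' : r ∣ Nat.card (MulAut.conj g • H : Subgroup G) := by
    rw [card_conj_smul]
    exact hrd
  obtain ⟨a, haS, ha1, hac⟩ := exists_central c'.nH hrd'
  have haH : a ∈ H := Sp_le H r (hx haS)
  have hH : MulAut.conj g⁻¹ • (MulAut.conj g • H) = H := by
    rw [← conj_mul_smul, inv_mul_cancel, map_one, one_smul]
  have h1 := m.ti_central c' (Sp_le _ r haS) ha1 hac (g := g⁻¹) (by rw [hH]; exact haH)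
  rw [hH] at h1
  exact h1.symm

theorem MC.ti' (m : MC G) (c : Cfg H K) :
    ∀ s ∈ H, s ≠ 1 → ∀ g : G, g * s * g⁻¹ ∈ H → g ∈ Subgroup.normalizer (H : Set G) := by
  intro s hs hs1 g hg
  have h1 : g * s * g⁻¹ ≠ 1 := by
    intro h
    apply hs1
    have h0 : s = g⁻¹ * (g * s * g⁻¹) * g := by group
    rw [h0, h]
    group
  have h2 := m.ti c hg h1 (conj_mem_conj_smul g s H hs)
  exact mem_normalizer_of_conj_smul_eq h2

end TI

end Cfsg.Agent.Lib.Helper1.KW
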