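import Mathlib
import Cfsg.Agent.Lib.Helper1.KWTI

set_option autoImplicit false
set_option linter.style.haveILetI false

/-! Products of two nilpotent subgroups of coprime orders: the counting argument and the
solvability theorem. -/

namespace Cfsg.Agent.Lib.Helper1.KW

open Pointwise

universe u

section Count

variable {G : Type u} [Group G]

/-- conjugating a family of elements by coset representatives -/
noncomputable def cmap {T : Type*} (N : Subgroup G) (φ : T → G) : (G ⧸ N) × T → G :=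
  fun x => (Quotient.out x.1 : G) * φ x.2 * (Quotient.out x.1 : G)⁻¹

theorem cmap_injective {T : Type*} (N : Subgroup G) (φ : T → G) (hφ : Function.Injective φ)
    (hTI : ∀ (t t' : T) (g : G), g * φ t * g⁻¹ = φ t' → g ∈ N) :
    Function.Injective (cmap N φ) := by
  rintro ⟨q, s⟩ ⟨q', s'⟩ h
  have h' : (Quotient.out q : G) * φ s * (Quotient.out q : G)⁻¹ =
      (Quotient.out q' : G) * φ s' * (Quotient.out q' : G)⁻¹ := h
  have h1 : ((Quotient.out q' : G)⁻¹ * Quotient.out q) * φ s *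
      ((Quotient.out q' : G)⁻¹ * Quotient.out q)⁻¹ = φ s' := by
    have h0 : ∀ a b c d : G, a * c * a⁻¹ = b * d * b⁻¹ → (b⁻¹ * a) * c * (b⁻¹ * a)⁻¹ = d := by
      intro a b c d e
      have e2 : d = b⁻¹ * (b * d * b⁻¹) * b := by group
      rw [e2, ← e]
      group
    exact h0 _ _ _ _ h'
  have h2 := hTI s s' _ h1
  have hq : q' = q := by
    calc q' = ((Quotient.out q' : G) : G ⧸ N) := (QuotientGroup.out_eq' q').symm
      _ = ((Quotient.out q : G) : G ⧸ N) := QuotientGroup.eq.mpr h2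
      _ = q := QuotientGroup.out_eq' q
  subst hq
  have hs : φ s = φ s' := mul_left_cancel (mul_right_cancel h')
  rw [hφ hs]

theorem cmap_pow_eq_one_iff {T : Type*} (N : Subgroup G) (φ : T → G) (x : (G ⧸ N) × T)
    (n : ℕ) : cmap N φ x ^ n = 1 ↔ φ x.2 ^ n = 1 := by
  unfold cmap
  rw [conj_pow]
  constructor
  · intro h
    have h0 : ∀ a b : G, a * b * a⁻¹ = 1 → b = 1 := by
      intro a b e
      have e2 : b = a⁻¹ * (a * b * a⁻¹) * a := by group
      rw [e2, e]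
      group
    exact h0 _ _ h
  · intro h
    rw [h]
    group

theorem count_inj [Finite G] {H K NH NK A₀ B₀ D : Subgroup G}
    (hcop : (Nat.card H).Coprime (Nat.card K))
    (tiH : ∀ s ∈ H, s ≠ 1 → ∀ g : G, g * s * g⁻¹ ∈ H → g ∈ NH)
    (tiK : ∀ s ∈ K, s ≠ 1 → ∀ g : G, g * s * g⁻¹ ∈ K → g ∈ NK)
    (hA₀H : A₀ ≤ H) (hA₀N : A₀ ≤ Subgroup.normalizer (K : Set G))
    (hB₀K : B₀ ≤ K) (hB₀N : B₀ ≤ Subgroup.normalizer (H : Set G)) (hD : NH ⊓ NK ≤ D) :
    NH.index * Nat.card {s : H // s ≠ 1} + NK.index * Nat.card {s : K // s ≠ 1} +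
      D.index * (Nat.card {s : A₀ // s ≠ 1} * Nat.card {s : B₀ // s ≠ 1}) + 1 ≤ Nat.card G := by
  classical
  have hdisj : H ⊓ K = ⊥ := (Subgroup.disjoint_of_coprime_natCard hcop).eq_bot
  have hcomm : ∀ a ∈ A₀, ∀ b ∈ B₀, Commute a b := by
    intro a ha b hb
    have h1 : a * b * a⁻¹ * b⁻¹ ∈ H ⊓ K := by
      refine Subgroup.mem_inf.mpr ⟨?_, ?_⟩
      · have h0 : a * b * a⁻¹ * b⁻¹ = a * (b * a⁻¹ * b⁻¹) := by group
        rw [h0]
        exact mul_mem (hA₀H ha) (conj_mem_of_mem_normalizer (hB₀N hb) (inv_mem (hA₀H ha)))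
      · exact mul_mem (conj_mem_of_mem_normalizer (hA₀N ha) (hB₀K hb)) (inv_mem (hB₀K hb))
    rw [hdisj, Subgroup.mem_bot] at h1
    show a * b = b * a
    have h2 : a * b = (a * b * a⁻¹ * b⁻¹) * (b * a) := by group
    rw [h2, h1, one_mul]
  obtain ⟨φ₁, hφ₁def⟩ : ∃ φ₁ : {s : H // s ≠ 1} → G, φ₁ = fun s => ((s.1 : H) : G) :=
    ⟨_, rfl⟩
  obtain ⟨φ₂, hφ₂def⟩ : ∃ φ₂ : {s : K // s ≠ 1} → G, φ₂ = fun s => ((s.1 : K) : G) :=
    ⟨_, rfl⟩
  obtain ⟨φ₃, hφ₃def⟩ : ∃ φ₃ : {s : A₀ // s ≠ 1} × {s : B₀ // s ≠ 1} → G,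
      φ₃ = fun s => ((s.1.1 : A₀) : G) * ((s.2.1 : B₀) : G) := ⟨_, rfl⟩
  have hφ₁ : Function.Injective φ₁ := by
    intro s s' h
    rw [hφ₁def] at h
    exact Subtype.ext (Subtype.ext h)
  have hφ₂ : Function.Injective φ₂ := by
    intro s s' h
    rw [hφ₂def] at h
    exact Subtype.ext (Subtype.ext h)
  have hφ₃ : Function.Injective φ₃ := by
    rintro ⟨a, b⟩ ⟨a', b'⟩ h
    rw [hφ₃def] at h
    have h' : ((a.1 : A₀) : G) * ((b.1 : B₀) : G) = ((a'.1 : A₀) : G) * ((b'.1 : B₀) : G) := h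
    have h1 : ((a'.1 : A₀) : G)⁻¹ * ((a.1 : A₀) : G) =
        ((b'.1 : B₀) : G) * ((b.1 : B₀) : G)⁻¹ := by
      have h0 : ∀ x y z w : G, x * y = z * w → z⁻¹ * x = w * y⁻¹ := by
        intro x y z w e
        have e2 : x = x * y * y⁻¹ := by group
        rw [e2, e]
        group
      exact h0 _ _ _ _ h'
    have h2 : ((a'.1 : A₀) : G)⁻¹ * ((a.1 : A₀) : G) ∈ H ⊓ K := by
      refine Subgroup.mem_inf.mpr ⟨mul_mem (inv_mem (hA₀H a'.1.2)) (hA₀H a.1.2), ?_⟩
      rw [h1]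
      exact mul_mem (hB₀K b'.1.2) (inv_mem (hB₀K b.1.2))
    rw [hdisj, Subgroup.mem_bot] at h2
    have ha : ((a.1 : A₀) : G) = ((a'.1 : A₀) : G) := by
      have h0 : ∀ x z : G, z⁻¹ * x = 1 → x = z := by
        intro x z e
        have e2 : x = z * (z⁻¹ * x) := by group
        rw [e2, e, mul_one]
      exact h0 _ _ h2
    have hb : ((b.1 : B₀) : G) = ((b'.1 : B₀) : G) := by
      rw [ha] at h'
      exact mul_left_cancel h'
    exact Prod.ext (Subtype.ext (Subtype.ext ha)) (Subtype.ext (Subtype.ext hb))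
  have hTI₁ : ∀ (t t' : {s : H // s ≠ 1}) (g : G), g * φ₁ t * g⁻¹ = φ₁ t' → g ∈ NH := by
    intro t t' g h
    rw [hφ₁def] at h
    refine tiH t.1 t.1.2 (fun e => t.2 (Subtype.ext e)) g ?_
    have h0 : g * ((t.1 : H) : G) * g⁻¹ = ((t'.1 : H) : G) := h
    rw [h0]
    exact t'.1.2
  have hTI₂ : ∀ (t t' : {s : K // s ≠ 1}) (g : G), g * φ₂ t * g⁻¹ = φ₂ t' → g ∈ NK := by
    intro t t' g h
    rw [hφ₂def] at h
    refine tiK t.1 t.1.2 (fun e => t.2 (Subtype.ext e)) g ?_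
    have h0 : g * ((t.1 : K) : G) * g⁻¹ = ((t'.1 : K) : G) := h
    rw [h0]
    exact t'.1.2
  have hTI₃ : ∀ (t t' : {s : A₀ // s ≠ 1} × {s : B₀ // s ≠ 1}) (g : G),
      g * φ₃ t * g⁻¹ = φ₃ t' → g ∈ D := by
    rintro ⟨a, b⟩ ⟨a', b'⟩ g h
    rw [hφ₃def] at h
    have h' : g * (((a.1 : A₀) : G) * ((b.1 : B₀) : G)) * g⁻¹ =
        ((a'.1 : A₀) : G) * ((b'.1 : B₀) : G) := h
    apply hD
    refine Subgroup.mem_inf.mpr ⟨?_, ?_⟩
    · have e : (g * (((a.1 : A₀) : G) * ((b.1 : B₀) : G)) * g⁻¹) ^ Nat.card K =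
          (((a'.1 : A₀) : G) * ((b'.1 : B₀) : G)) ^ Nat.card K := by rw [h']
      rw [conj_pow, (hcomm _ a.1.2 _ b.1.2).mul_pow, (hcomm _ a'.1.2 _ b'.1.2).mul_pow,
        pow_card_of_mem (hB₀K b.1.2), pow_card_of_mem (hB₀K b'.1.2), mul_one, mul_one] at e
      refine tiH (((a.1 : A₀) : G) ^ Nat.card K) (pow_mem (hA₀H a.1.2) _) ?_ g ?_
      · intro h1
        exact a.2 (Subtype.ext
          (eq_one_of_pow_coprime hcop (pow_card_of_mem (hA₀H a.1.2)) h1))
      · rw [e]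
        exact pow_mem (hA₀H a'.1.2) _
    · have e : (g * (((a.1 : A₀) : G) * ((b.1 : B₀) : G)) * g⁻¹) ^ Nat.card H =
          (((a'.1 : A₀) : G) * ((b'.1 : B₀) : G)) ^ Nat.card H := by rw [h']
      rw [conj_pow, (hcomm _ a.1.2 _ b.1.2).mul_pow, (hcomm _ a'.1.2 _ b'.1.2).mul_pow,
        pow_card_of_mem (hA₀H a.1.2), pow_card_of_mem (hA₀H a'.1.2), one_mul, one_mul] at e
      refine tiK (((b.1 : B₀) : G) ^ Nat.card H) (pow_mem (hB₀K b.1.2) _) ?_ g ?_
      · intro h1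
        exact b.2 (Subtype.ext
          (eq_one_of_pow_coprime hcop h1 (pow_card_of_mem (hB₀K b.1.2))))
      · rw [e]
        exact pow_mem (hB₀K b'.1.2) _
  -- signatures
  have S1 : ∀ x, cmap NH φ₁ x ^ Nat.card H = 1 ∧ cmap NH φ₁ x ^ Nat.card K ≠ 1 := by
    intro x
    rw [cmap_pow_eq_one_iff, Ne, cmap_pow_eq_one_iff, hφ₁def]
    refine ⟨pow_card_of_mem x.2.1.2, fun h => x.2.2 (Subtype.ext ?_)⟩
    exact eq_one_of_pow_coprime hcop (pow_card_of_mem x.2.1.2) h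
  have S2 : ∀ x, cmap NK φ₂ x ^ Nat.card K = 1 ∧ cmap NK φ₂ x ^ Nat.card H ≠ 1 := by
    intro x
    rw [cmap_pow_eq_one_iff, Ne, cmap_pow_eq_one_iff, hφ₂def]
    refine ⟨pow_card_of_mem x.2.1.2, fun h => x.2.2 (Subtype.ext ?_)⟩
    exact eq_one_of_pow_coprime hcop h (pow_card_of_mem x.2.1.2)
  have S3 : ∀ x, cmap D φ₃ x ^ Nat.card H ≠ 1 ∧ cmap D φ₃ x ^ Nat.card K ≠ 1 := by
    intro x
    rw [Ne, cmap_pow_eq_one_iff, Ne, cmap_pow_eq_one_iff, hφ₃def]
    constructor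
    · intro h
      have h0 : (((x.2.1.1 : A₀) : G) * ((x.2.2.1 : B₀) : G)) ^ Nat.card H = 1 := h
      rw [(hcomm _ x.2.1.1.2 _ x.2.2.1.2).mul_pow, pow_card_of_mem (hA₀H x.2.1.1.2),
        one_mul] at h0
      exact x.2.2.2 (Subtype.ext
        (eq_one_of_pow_coprime hcop h0 (pow_card_of_mem (hB₀K x.2.2.1.2))))
    · intro h
      have h0 : (((x.2.1.1 : A₀) : G) * ((x.2.2.1 : B₀) : G)) ^ Nat.card K = 1 := h
      rw [(hcomm _ x.2.1.1.2 _ x.2.2.1.2).mul_pow, pow_card_of_mem (hB₀K x.2.2.1.2),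
        mul_one] at h0
      exact x.2.1.2 (Subtype.ext
        (eq_one_of_pow_coprime hcop (pow_card_of_mem (hA₀H x.2.1.1.2)) h0))
  have hinj : Function.Injective
      (Sum.elim (Sum.elim (Sum.elim (cmap NH φ₁) (cmap NK φ₂)) (cmap D φ₃))
        (fun _ : Unit => (1 : G))) := by
    apply Function.Injective.sumElim
    · apply Function.Injective.sumElim
      · apply Function.Injective.sumElim
        · exact cmap_injective NH φ₁ hφ₁ hTI₁
        · exact cmap_injective NK φ₂ hφ₂ hTI₂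
        · intro x y h
          exact (S2 y).2 (h ▸ (S1 x).1)
      · exact cmap_injective D φ₃ hφ₃ hTI₃
      · rintro (x | x) y h
        · have h' : cmap NH φ₁ x = cmap D φ₃ y := h
          exact (S3 y).1 (h' ▸ (S1 x).1)
        · have h' : cmap NK φ₂ x = cmap D φ₃ y := h
          exact (S3 y).2 (h' ▸ (S2 x).1)
    · intro a b _
      rfl
    · rintro ((x | x) | x) u h
      · have h' : cmap NH φ₁ x = 1 := h
        exact (S1 x).2 (by rw [h', one_pow])
      · have h' : cmap NK φ₂ x = 1 := h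
        exact (S2 x).2 (by rw [h', one_pow])
      · have h' : cmap D φ₃ x = 1 := h
        exact (S3 x).1 (by rw [h', one_pow])
  have hcard := Nat.card_le_card_of_injective _ hinj
  have hU : Nat.card Unit = 1 := Nat.card_unique
  rw [Nat.card_sum, Nat.card_sum, Nat.card_sum, Nat.card_prod, Nat.card_prod, Nat.card_prod,
    Nat.card_prod, hU] at hcard
  exact hcard

theorem count_arith {hH kK a b n m' d c1 c2 ca cb : ℕ}
    (h1 : c1 + 1 = hH) (h2 : c2 + 1 = kK) (h3 : ca + 1 = a) (h4 : cb + 1 = b)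
    (h5 : n * b = kK) (h6 : m' * a = hH) (h7 : d * (a * b) = hH * kK)
    (h8 : n * c1 + m' * c2 + d * (ca * cb) + 1 ≤ hH * kK) : n = 1 ∨ m' = 1 := by
  subst h1 h2 h3 h4
  have hd : d = m' * n := by
    have hpos : 0 < (ca + 1) * (cb + 1) := by positivity
    apply Nat.eq_of_mul_eq_mul_right hpos
    rw [h7, ← h5, ← h6]
    ring
  subst hd
  by_contra hcon
  push Not at hcon
  have hn0 : n ≠ 0 := by
    rintro rfl
    simp at h5
  have hm0 : m' ≠ 0 := by
    rintro rfl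
    simp at h6
  have hn2 : 2 ≤ n := by omega
  have hm2 : 2 ≤ m' := by omega
  zify at h5 h6 h8 hn2 hm2
  have e1 : (c1 : ℤ) = m' * (ca + 1) - 1 := by linarith
  have e2 : (c2 : ℤ) = n * (cb + 1) - 1 := by linarith
  rw [e1, e2] at h8
  nlinarith [mul_pos (show (0 : ℤ) < (m' : ℤ) - 1 by linarith)
    (show (0 : ℤ) < (n : ℤ) - 1 by linarith)]

end Count

section Main

variable {G : Type u} [Group G] [Finite G] {H K : Subgroup G}

theorem MC.false (m : MC G) (c : Cfg H K) : False := by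
  have tiH := m.ti' c
  have tiK := m.ti' c.symm
  obtain ⟨NH, hNH⟩ : ∃ NH : Subgroup G, NH = Subgroup.normalizer (H : Set G) := ⟨_, rfl⟩
  obtain ⟨NK, hNK⟩ : ∃ NK : Subgroup G, NK = Subgroup.normalizer (K : Set G) := ⟨_, rfl⟩
  rw [← hNH] at tiH
  rw [← hNK] at tiK
  obtain ⟨A₀, hA₀⟩ : ∃ A₀ : Subgroup G, A₀ = H ⊓ NK := ⟨_, rfl⟩
  obtain ⟨B₀, hB₀⟩ : ∃ B₀ : Subgroup G, B₀ = K ⊓ NH := ⟨_, rfl⟩
  obtain ⟨D, hDdef⟩ : ∃ D : Subgroup G, D = NH ⊓ NK := ⟨_, rfl⟩
  have hA₀H : A₀ ≤ H := by rw [hA₀]; exact inf_le_left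
  have hA₀N : A₀ ≤ NK := by rw [hA₀]; exact inf_le_right
  have hB₀K : B₀ ≤ K := by rw [hB₀]; exact inf_le_left
  have hB₀N : B₀ ≤ NH := by rw [hB₀]; exact inf_le_right
  have hHN : H ≤ NH := by rw [hNH]; exact Subgroup.le_normalizer
  have hKN : K ≤ NK := by rw [hNK]; exact Subgroup.le_normalizer
  have hcount := count_inj (D := D) c.cop tiH tiK hA₀H (hNK ▸ hA₀N) hB₀K (hNH ▸ hB₀N)
    hDdef.ge
  have hsetNH : (NH : Set G) = (H : Set G) * (B₀ : Set G) := by
    rw [hNH, hB₀, hNH]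
    exact c.normalizer_eq
  have hsetNK : (NK : Set G) = (K : Set G) * (A₀ : Set G) := by
    rw [hNK, hA₀, hNK]
    exact c.symm.normalizer_eq
  have hsetD : (D : Set G) = (A₀ : Set G) * (B₀ : Set G) := by
    ext g
    constructor
    · intro hg
      have hg' : g ∈ NH ⊓ NK := by
        rw [← hDdef]
        exact hg
      obtain ⟨hg1, hg2⟩ := Subgroup.mem_inf.mp hg'
      obtain ⟨h, hh, k, hk, rfl⟩ := c.fac g
      have hkNH : k ∈ NH := by
        have h0 : k = h⁻¹ * (h * k) := by group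
        rw [h0]
        exact mul_mem (inv_mem (hHN hh)) hg1
      have hhNK : h ∈ NK := by
        have h0 : h = (h * k) * k⁻¹ := by group
        rw [h0]
        exact mul_mem hg2 (inv_mem (hKN hk))
      refine ⟨h, ?_, k, ?_, rfl⟩
      · rw [hA₀]
        exact Subgroup.mem_inf.mpr ⟨hh, hhNK⟩
      · rw [hB₀]
        exact Subgroup.mem_inf.mpr ⟨hk, hkNH⟩
    · rintro ⟨a, ha, b, hb, rfl⟩
      have h0 : a * b ∈ NH ⊓ NK :=
        Subgroup.mem_inf.mpr ⟨mul_mem (hHN (hA₀H ha)) (hB₀N hb),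
          mul_mem (hA₀N ha) (hKN (hB₀K hb))⟩
      rw [← hDdef] at h0
      exact h0
  have hcAB : (Nat.card A₀).Coprime (Nat.card B₀) :=
    Nat.Coprime.coprime_dvd_left (Subgroup.card_dvd_of_le hA₀H)
      (Nat.Coprime.coprime_dvd_right (Subgroup.card_dvd_of_le hB₀K) c.cop)
  have hcardNH : Nat.card NH = Nat.card H * Nat.card B₀ :=
    card_prod_coprime H B₀ NH hsetNH
      (Nat.Coprime.coprime_dvd_right (Subgroup.card_dvd_of_le hB₀K) c.cop)
  have hcardNK : Nat.card NK = Nat.card K * Nat.card A₀ :=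
    card_prod_coprime K A₀ NK hsetNK
      (Nat.Coprime.coprime_dvd_right (Subgroup.card_dvd_of_le hA₀H) c.cop.symm)
  have hcardD : Nat.card D = Nat.card A₀ * Nat.card B₀ := card_prod_coprime A₀ B₀ D hsetD hcAB
  have hHpos : 0 < Nat.card H := Nat.card_pos
  have hKpos : 0 < Nat.card K := Nat.card_pos
  have h5 : NH.index * Nat.card B₀ = Nat.card K := by
    have e := Subgroup.index_mul_card NH
    rw [hcardNH, ← c.card] at e
    apply Nat.eq_of_mul_eq_mul_left hHpos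
    rw [← e]
    ring
  have h6 : NK.index * Nat.card A₀ = Nat.card H := by
    have e := Subgroup.index_mul_card NK
    rw [hcardNK, ← c.card] at e
    apply Nat.eq_of_mul_eq_mul_left hKpos
    rw [mul_comm (Nat.card K) (Nat.card H), ← e]
    ring
  have h7 : D.index * (Nat.card A₀ * Nat.card B₀) = Nat.card H * Nat.card K := by
    rw [← hcardD, Subgroup.index_mul_card, c.card]
  rw [← c.card] at hcount
  have key := count_arith (card_ne_add_one H 1) (card_ne_add_one K 1) (card_ne_add_one A₀ 1)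
    (card_ne_add_one B₀ 1) h5 h6 h7 hcount
  rcases key with h | h
  · have h1 : Subgroup.normalizer (H : Set G) = ⊤ := by
      rw [← hNH]
      exact Subgroup.index_eq_one.mp h
    exact m.H_ne_top c
      (m.eq_top_of_normal c (Subgroup.normalizer_eq_top_iff.mp h1) (m.H_ne_bot c))
  · have h1 : Subgroup.normalizer (K : Set G) = ⊤ := by
      rw [← hNK]
      exact Subgroup.index_eq_one.mp h
    exact m.H_ne_top c.symm
      (m.eq_top_of_normal c (Subgroup.normalizer_eq_top_iff.mp h1) (m.H_ne_bot c.symm))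

end Main

/-- a finite group that is the product of two nilpotent subgroups of coprime orders is
solvable -/
theorem coprime_solvable : ∀ (n : ℕ) (G : Type u) [Group G] [Finite G], Nat.card G ≤ n →
    ∀ H K : Subgroup G, Cfg H K → Group.IsSolvable G := by
  intro n
  induction n using Nat.strong_induction_on with
  | _ n ih =>
    intro G _ _ hn H K c
    by_contra hns
    have m : MC G :=
      ⟨fun X _ _ hX A B cX => ih (Nat.card X) (by omega) X le_rfl A B cX, hns⟩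
    exact m.false c

end Cfsg.Agent.Lib.Helper1.KW
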