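import Mathlib
import Cfsg.Agent.Lib.Helper1.KWCount
import Cfsg.Agent.S0560

set_option autoImplicit false
set_option linter.style.haveILetI false

/-! The Kegel–Wielandt theorem: products of two nilpotent subgroups are solvable. -/

namespace Cfsg.Agent.Lib.Helper1.KW

open Pointwise

universe u

section General

variable {G : Type u} [Group G]

/-- a factorisation of `G` by two nilpotent subgroups -/
structure Fac (A B : Subgroup G) : Prop where
  nA : Group.IsNilpotent A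
  nB : Group.IsNilpotent B
  fac : ∀ g : G, ∃ a ∈ A, ∃ b ∈ B, g = a * b

variable {A B : Subgroup G}

theorem Fac.symm (f : Fac A B) : Fac B A := by
  refine ⟨f.nB, f.nA, ?_⟩
  intro g
  obtain ⟨h, hh, k, hk, e⟩ := f.fac g⁻¹
  refine ⟨k⁻¹, inv_mem hk, h⁻¹, inv_mem hh, ?_⟩
  rw [← mul_inv_rev, ← e, inv_inv]

theorem Fac.map (f : Fac A B) {G' : Type*} [Group G'] (φ : G →* G')
    (hφ : Function.Surjective φ) : Fac (A.map φ) (B.map φ) := by
  refine ⟨?_, ?_, ?_⟩
  · haveI := f.nA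
    exact Group.nilpotent_of_surjective (φ.subgroupMap A) (φ.subgroupMap_surjective A)
  · haveI := f.nB
    exact Group.nilpotent_of_surjective (φ.subgroupMap B) (φ.subgroupMap_surjective B)
  · intro g'
    obtain ⟨g, rfl⟩ := hφ g'
    obtain ⟨h, hh, k, hk, rfl⟩ := f.fac g
    exact ⟨φ h, Subgroup.mem_map_of_mem φ hh, φ k, Subgroup.mem_map_of_mem φ hk, map_mul φ h k⟩

/-- overgroups of `A` are factorised -/
theorem Fac.over (f : Fac A B) {X : Subgroup G} (hAX : A ≤ X) :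
    Fac (A.subgroupOf X) ((B ⊓ X).subgroupOf X) := by
  refine ⟨?_, nilp_sub f.nB X, ?_⟩
  · haveI := f.nA
    exact Group.nilpotent_of_surjective (Subgroup.subgroupOfEquivOfLe hAX).symm.toMonoidHom
      (Subgroup.subgroupOfEquivOfLe hAX).symm.surjective
  · intro x
    obtain ⟨a, ha, b, hb, e⟩ := f.fac x.1
    have hbX : b ∈ X := by
      have h0 : b = a⁻¹ * x.1 := by rw [e]; group
      rw [h0]
      exact mul_mem (inv_mem (hAX ha)) x.2
    exact ⟨⟨a, hAX ha⟩, ha, ⟨b, hbX⟩, Subgroup.mem_inf.mpr ⟨hb, hbX⟩, Subtype.ext e⟩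

theorem card_quot_lt [Finite G] (N : Subgroup G) [N.Normal] (hN1 : N ≠ ⊥) :
    Nat.card (G ⧸ N) < Nat.card G := by
  have h1 : Nat.card (G ⧸ N) = N.index := (Subgroup.index_eq_card N).symm
  have h2 := Subgroup.index_mul_card N
  have h3 : 1 < Nat.card N := (Subgroup.one_lt_card_iff_ne_bot N).mpr hN1
  have h4 : 0 < N.index := Nat.pos_of_ne_zero Subgroup.index_ne_zero_of_finite
  rw [h1, ← h2]
  nlinarith

theorem conj_prod_set [Finite G] {H K A₁ B₁ S : Subgroup G}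
    (hAn : H ≤ Subgroup.normalizer (A₁ : Set G)) (hBn : K ≤ Subgroup.normalizer (B₁ : Set G))
    (hS : (S : Set G) = (A₁ : Set G) * (B₁ : Set G)) {h k : G} (hh : h ∈ H) (hk : k ∈ K) :
    ((MulAut.conj h • S : Subgroup G) : Set G) =
      (A₁ : Set G) * ((MulAut.conj (h * k) • B₁ : Subgroup G) : Set G) := by
  ext y
  constructor
  · intro hy
    have hy' : h⁻¹ * y * h ∈ (S : Set G) := (mem_conj_smul_iff h y S).mp hy
    rw [hS] at hy'
    obtain ⟨a, ha, b, hb, hab⟩ := hy'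
    have hab' : a * b = h⁻¹ * y * h := hab
    refine ⟨h * a * h⁻¹, conj_mem_of_mem_normalizer (hAn hh) ha, h * b * h⁻¹, ?_, ?_⟩
    · show h * b * h⁻¹ ∈ MulAut.conj (h * k) • B₁
      rw [mem_conj_smul_iff]
      have h2 : (h * k)⁻¹ * (h * b * h⁻¹) * (h * k) = k⁻¹ * b * k := by group
      rw [h2]
      exact conj_inv_mem_of_mem_normalizer (hBn hk) hb
    · show h * a * h⁻¹ * (h * b * h⁻¹) = y
      have h3 : h * a * h⁻¹ * (h * b * h⁻¹) = h * (a * b) * h⁻¹ := by group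
      rw [h3, hab']
      group
  · rintro ⟨a, ha, b', hb', rfl⟩
    have hb'' : (h * k)⁻¹ * b' * (h * k) ∈ B₁ := (mem_conj_smul_iff _ _ _).mp hb'
    show a * b' ∈ MulAut.conj h • S
    rw [mem_conj_smul_iff]
    have h1 : h⁻¹ * (a * b') * h ∈ (S : Set G) := by
      rw [hS]
      refine ⟨h⁻¹ * a * h, conj_inv_mem_of_mem_normalizer (hAn hh) ha, h⁻¹ * b' * h, ?_,
        by group⟩
      have h2 : h⁻¹ * b' * h = k * ((h * k)⁻¹ * b' * (h * k)) * k⁻¹ := by group
      rw [h2]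
      exact conj_mem_of_mem_normalizer (hBn hk) hb''
    exact h1

theorem Fac.prod_pgroup [Finite G] (f : Fac A B) (p : ℕ) [Fact p.Prime] (x : G) :
    ∃ S : Subgroup G, IsPGroup p S ∧
      (S : Set G) = (Sp A p : Set G) * ((MulAut.conj x • Sp B p : Subgroup G) : Set G) := by
  obtain ⟨P, Q, R, hR⟩ := Cfsg.Agent.S0560.result A B f.fac p
  rw [sylow_map_eq_Sp f.nA P, sylow_map_eq_Sp f.nB Q] at hR
  obtain ⟨a, ha, b, hb, rfl⟩ := f.fac x
  exact ⟨MulAut.conj a • (R : Subgroup G), isPGroup_conj R.isPGroup' a,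
    conj_prod_set (le_normalizer_Sp f.nA p) (le_normalizer_Sp f.nB p) hR ha hb⟩

theorem nc_le [Finite G] {S N₁ M₀ A₁ : Subgroup G}
    (hfac : ∀ g : G, ∃ n ∈ M₀, ∃ a ∈ A₁, g = n * a)
    (hAS : A₁ ≤ Subgroup.normalizer (S : Set G)) (hS : S ≤ N₁)
    (hM : M₀ ≤ Subgroup.normalizer (N₁ : Set G)) :
    Subgroup.normalClosure (S : Set G) ≤ N₁ := by
  unfold Subgroup.normalClosure
  rw [Subgroup.closure_le]
  intro y hy
  rw [Group.mem_conjugatesOfSet_iff] at hy
  obtain ⟨s, hs, hsy⟩ := hy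
  obtain ⟨g, rfl⟩ := isConj_iff.mp hsy
  obtain ⟨n, hn, a, ha, rfl⟩ := hfac g
  have h1 : a * s * a⁻¹ ∈ N₁ := hS (conj_mem_of_mem_normalizer (hAS ha) hs)
  have h2 : n * a * s * (n * a)⁻¹ = n * (a * s * a⁻¹) * n⁻¹ := by group
  show n * a * s * (n * a)⁻¹ ∈ N₁
  rw [h2]
  exact conj_mem_of_mem_normalizer (hM hn) h1

end General

/-- a minimal counterexample to the Kegel–Wielandt theorem -/
structure MC2 (G : Type u) [Group G] [Finite G] : Prop where
  ih : ∀ (X : Type u) [Group X] [Finite X], Nat.card X < Nat.card G →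
    ∀ A B : Subgroup X, Fac A B → Group.IsSolvable X
  ns : ¬ Group.IsSolvable G

section Steps2

variable {G : Type u} [Group G] [Finite G] {A B : Subgroup G}

theorem MC2.solvable_over (m : MC2 G) (f : Fac A B) {X : Subgroup G} (hAX : A ≤ X)
    (hX : X ≠ ⊤) : Group.IsSolvable X :=
  m.ih X (lt_of_le_of_ne (Subgroup.card_le_card_group X)
    (fun h => hX ((Subgroup.card_eq_iff_eq_top X).mp h))) _ _ (f.over hAX)

theorem MC2.radical (m : MC2 G) (f : Fac A B) {N : Subgroup G} (hN : N.Normal)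
    (hNs : Group.IsSolvable N) : N = ⊥ := by
  by_contra hN1
  apply m.ns
  haveI := hN
  haveI := hNs
  haveI hQs : Group.IsSolvable (G ⧸ N) :=
    m.ih (G ⧸ N) (card_quot_lt N hN1) (A.map (QuotientGroup.mk' N))
      (B.map (QuotientGroup.mk' N))
      (f.map (QuotientGroup.mk' N) (QuotientGroup.mk'_surjective N))
  exact Group.isSolvable_of_ker_le_range N.subtype (QuotientGroup.mk' N)
    (by rw [QuotientGroup.ker_mk', Subgroup.range_subtype])

theorem MC2.fac_normal (m : MC2 G) (f : Fac A B) {M : Subgroup G} (hM : M.Normal)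
    (hM1 : M ≠ ⊥) : ∀ g : G, ∃ n ∈ M, ∃ a ∈ A, g = n * a := by
  haveI := hM
  have hX : M ⊔ A = ⊤ := by
    by_contra hX
    haveI := m.solvable_over f (le_sup_right : A ≤ M ⊔ A) hX
    haveI : Group.IsSolvable M := isSolvable_of_le (le_sup_left : M ≤ M ⊔ A)
    exact hM1 (m.radical f hM inferInstance)
  intro g
  have hg : g ∈ M ⊔ A := by
    rw [hX]
    exact Subgroup.mem_top g
  have hset : ((M ⊔ A : Subgroup G) : Set G) = (M : Set G) * (A : Set G) :=
    Subgroup.normal_mul M A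
  have hg' : g ∈ (M : Set G) * (A : Set G) := by
    rw [← hset]
    exact hg
  obtain ⟨n, hn, a, ha, e⟩ := hg'
  exact ⟨n, hn, a, ha, e.symm⟩

theorem MC2.Sp_le_of_Sp_le (m : MC2 G) (f : Fac A B) {p : ℕ} [Fact p.Prime] {M : Subgroup G}
    (hM : M.Normal) (hp : p ∣ Nat.card A) (hU : Sp A p ≤ M) : Sp B p ≤ M := by
  haveI := hM
  have hM1 : M ≠ ⊥ := fun h => Sp_ne_bot hp (le_bot_iff.mp (h ▸ hU))
  intro v hv
  obtain ⟨-, j, hvj⟩ := (mem_Sp f.nB).mp hv
  obtain ⟨n, hn, a, ha, e⟩ := m.fac_normal f hM hM1 v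
  have haM : a ∈ M := by
    obtain ⟨t, ht⟩ : ∃ t : ℕ, t = orderOf a / p ^ (orderOf a).factorization p := ⟨_, rfl⟩
    have hat : a ^ t ∈ Sp A p := by
      rw [mem_Sp f.nA]
      refine ⟨pow_mem ha t, (orderOf a).factorization p, ?_⟩
      rw [← pow_mul, ht, Nat.div_mul_cancel (Nat.ordProj_dvd _ _), pow_orderOf_eq_one]
    have h1 : ((a : G) : G ⧸ M) ^ t = 1 := by
      rw [← QuotientGroup.mk_pow]
      exact (QuotientGroup.eq_one_iff _).mpr (hU hat)
    have h3 : ((v : G) : G ⧸ M) = ((a : G) : G ⧸ M) := by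
      rw [e, QuotientGroup.mk_mul, (QuotientGroup.eq_one_iff n).mpr hn, one_mul]
    have h2 : ((a : G) : G ⧸ M) ^ p ^ j = 1 := by
      rw [← h3, ← QuotientGroup.mk_pow, hvj]
      rfl
    have hcop : t.Coprime (p ^ j) := by
      rw [ht]
      exact Nat.Coprime.pow_right j
        (Nat.coprime_ordCompl Fact.out (orderOf_pos a).ne').symm
    have h4 := eq_one_of_pow_coprime hcop h1 h2
    exact (QuotientGroup.eq_one_iff a).mp h4
  rw [e]
  exact mul_mem hn haM

theorem MC2.false (m : MC2 G) (f : Fac A B) : False := by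
  by_cases hcop : (Nat.card A).Coprime (Nat.card B)
  · exact m.ns (coprime_solvable _ G le_rfl A B ⟨f.nA, f.nB, hcop, f.fac⟩)
  obtain ⟨p, hp, hpA, hpB⟩ := Nat.Prime.not_coprime_iff_dvd.mp hcop
  haveI : Fact p.Prime := ⟨hp⟩
  have hU1 : Sp A p ≠ ⊥ := Sp_ne_bot hpA
  have hV1 : Sp B p ≠ ⊥ := Sp_ne_bot hpB
  have hradp : ∀ N : Subgroup G, N.Normal → IsPGroup p N → N = ⊥ := by
    intro N hN hNp
    haveI := hNp.isNilpotent
    exact m.radical f hN IsNilpotent.to_isSolvable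
  obtain ⟨M, hM, hMt, hUV⟩ := Cfsg.Agent.S0566.result (Sp A p) (Sp B p) hU1 hV1 (by
    intro x
    obtain ⟨S, hSp, hSe⟩ := f.prod_pgroup p x
    refine ⟨S, ?_, hSe⟩
    intro hST
    subst hST
    have h0 := hradp ⊤ inferInstance hSp
    exact hU1 (le_bot_iff.mp ((le_top : Sp A p ≤ ⊤).trans h0.le)))
  have hUM : Sp A p ≤ M := by
    rcases hUV with h | h
    · exact h
    · exact m.Sp_le_of_Sp_le f.symm hM hpB h
  obtain ⟨M₀, hM₀def⟩ : ∃ M₀ : Subgroup G, M₀ = Subgroup.normalClosure (Sp A p : Set G) :=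
    ⟨_, rfl⟩
  have hM₀n : M₀.Normal := by
    rw [hM₀def]
    exact Subgroup.normalClosure_normal
  have hM₀M : M₀ ≤ M := by
    rw [hM₀def]
    haveI := hM
    exact Subgroup.normalClosure_le_normal hUM
  have hM₀t : M₀ ≠ ⊤ := fun h => hMt (top_le_iff.mp (h ▸ hM₀M))
  have hUM₀ : Sp A p ≤ M₀ := by
    rw [hM₀def]
    exact Subgroup.subset_normalClosure
  have hVM₀ : Sp B p ≤ M₀ := m.Sp_le_of_Sp_le f hM₀n hpA hUM₀
  have hM₀1 : M₀ ≠ ⊥ := fun h => hU1 (le_bot_iff.mp (h ▸ hUM₀))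
  have hfacA := m.fac_normal f hM₀n hM₀1
  have hfacB := m.fac_normal f.symm hM₀n hM₀1
  have hconjV : ∀ (x : M₀) (w : G), w ∈ MulAut.conj (x : G) • Sp B p → w ∈ M₀ := by
    intro x w hw
    have hw' : (x : G)⁻¹ * w * (x : G) ∈ Sp B p := (mem_conj_smul_iff _ _ _).mp hw
    have h0 : w = (x : G) * ((x : G)⁻¹ * w * (x : G)) * (x : G)⁻¹ := by group
    rw [h0]
    exact mul_mem (mul_mem x.2 (hVM₀ hw')) (inv_mem x.2)
  obtain ⟨N', hN', hN't, hUV'⟩ := Cfsg.Agent.S0566.result (G := M₀)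
    ((Sp A p).subgroupOf M₀) ((Sp B p).subgroupOf M₀)
    (by
      intro h
      apply hU1
      rw [Subgroup.eq_bot_iff_forall] at h ⊢
      intro u hu
      exact congrArg Subtype.val (h ⟨u, hUM₀ hu⟩ hu))
    (by
      intro h
      apply hV1
      rw [Subgroup.eq_bot_iff_forall] at h ⊢
      intro u hu
      exact congrArg Subtype.val (h ⟨u, hVM₀ hu⟩ hu))
    (by
      intro x
      obtain ⟨S, hSp, hSe⟩ := f.prod_pgroup p (x : G)
      refine ⟨S.subgroupOf M₀, ?_, ?_⟩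
      · intro hST
        have hle : M₀ ≤ S := Subgroup.subgroupOf_eq_top.mp hST
        exact hM₀1 (hradp M₀ hM₀n (hSp.to_le hle))
      · ext y
        constructor
        · intro hy
          have hy' : (y : G) ∈ (S : Set G) := hy
          rw [hSe] at hy'
          obtain ⟨u, hu, w, hw, huw⟩ := hy'
          have hw' : (x : G)⁻¹ * w * (x : G) ∈ Sp B p := (mem_conj_smul_iff _ _ _).mp hw
          have hwM : w ∈ M₀ := hconjV x w hw
          refine ⟨⟨u, hUM₀ hu⟩, hu, ⟨w, hwM⟩, ?_, Subtype.ext huw⟩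
          show (⟨w, hwM⟩ : M₀) ∈ MulAut.conj x • (Sp B p).subgroupOf M₀
          rw [mem_conj_smul_iff]
          exact hw'
        · rintro ⟨u, hu, w, hw, rfl⟩
          have hw' : x⁻¹ * w * x ∈ (Sp B p).subgroupOf M₀ := (mem_conj_smul_iff _ _ _).mp hw
          have h1 : ((u : G) * (w : G)) ∈ (S : Set G) := by
            rw [hSe]
            refine ⟨u, hu, w, ?_, rfl⟩
            show (w : G) ∈ MulAut.conj (x : G) • Sp B p
            rw [mem_conj_smul_iff]
            exact hw'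
          exact h1)
  obtain ⟨N₁, hN₁def⟩ : ∃ N₁ : Subgroup G, N₁ = N'.map M₀.subtype := ⟨_, rfl⟩
  have hMN₁ : M₀ ≤ Subgroup.normalizer (N₁ : Set G) := by
    intro n hn
    apply mem_normalizer_of_forall
    rw [hN₁def]
    rintro _ ⟨y, hy, rfl⟩
    exact ⟨⟨n, hn⟩ * y * ⟨n, hn⟩⁻¹, hN'.conj_mem y hy ⟨n, hn⟩, rfl⟩
  have hN₁ne : ¬ M₀ ≤ N₁ := by
    intro hle
    apply hN't
    rw [eq_top_iff]
    intro z _
    have hz : (z : G) ∈ N₁ := hle z.2
    rw [hN₁def] at hz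
    obtain ⟨w, hw, hwz⟩ := hz
    have hwz' : w = z := Subtype.ext hwz
    rw [← hwz']
    exact hw
  have hN₁M : N₁ ≤ M₀ := by
    rw [hN₁def]
    exact Subgroup.map_subtype_le _
  rcases hUV' with h | h
  · apply hN₁ne
    have hUN₁ : Sp A p ≤ N₁ := by
      intro u hu
      rw [hN₁def]
      exact ⟨⟨u, hUM₀ hu⟩, h (show (⟨u, hUM₀ hu⟩ : M₀) ∈ (Sp A p).subgroupOf M₀ from hu), rfl⟩
    rw [hM₀def]
    exact nc_le hfacA (le_normalizer_Sp f.nA p) hUN₁ hMN₁
  · apply hN₁ne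
    have hVN₁ : Sp B p ≤ N₁ := by
      intro u hu
      rw [hN₁def]
      exact ⟨⟨u, hVM₀ hu⟩, h (show (⟨u, hVM₀ hu⟩ : M₀) ∈ (Sp B p).subgroupOf M₀ from hu), rfl⟩
    have hncV : Subgroup.normalClosure (Sp B p : Set G) ≤ N₁ :=
      nc_le hfacB (le_normalizer_Sp f.nB p) hVN₁ hMN₁
    have hU2 : Sp A p ≤ Subgroup.normalClosure (Sp B p : Set G) :=
      m.Sp_le_of_Sp_le f.symm Subgroup.normalClosure_normal hpB Subgroup.subset_normalClosure
    haveI : (Subgroup.normalClosure (Sp B p : Set G)).Normal := Subgroup.normalClosure_normal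
    rw [hM₀def]
    exact (Subgroup.normalClosure_le_normal hU2).trans hncV

end Steps2

/-- Kegel–Wielandt: a finite group that is the product of two nilpotent subgroups is
solvable -/
theorem kw_solvable : ∀ (n : ℕ) (G : Type u) [Group G] [Finite G], Nat.card G ≤ n →
    ∀ A B : Subgroup G, Fac A B → Group.IsSolvable G := by
  intro n
  induction n using Nat.strong_induction_on with
  | _ n ih =>
    intro G _ _ hn A B f
    by_contra hns
    have m : MC2 G :=
      ⟨fun X _ _ hX A' B' fX => ih (Nat.card X) (by omega) X le_rfl A' B' fX, hns⟩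
    exact m.false f

end Cfsg.Agent.Lib.Helper1.KW
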