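import Mathlib
import Cfsg.Agent.Lib.Helper1.KWGen

set_option autoImplicit false
set_option linter.style.haveILetI false

/-! Products of two nilpotent subgroups: a proper normal subgroup containing a factor. -/

namespace Cfsg.Agent.Lib.Helper1.KW

open Pointwise

universe u

section NormalSub

variable {G : Type u} [Group G] [Finite G] {A B : Subgroup G}

theorem nilp_normal (hG : Group.IsNilpotent G) {A : Subgroup G} (hA : A ≠ ⊤) :
    ∃ N : Subgroup G, N.Normal ∧ N ≠ ⊤ ∧ A ≤ N := by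
  obtain h | ⟨C, hC, hAC⟩ := eq_top_or_exists_le_coatom A
  · exact (hA h).elim
  · exact ⟨C, ((Group.isNilpotent_of_finite_tfae (G := G)).out 0 2 rfl rfl |>.mp hG) C hC,
      hC.1, hAC⟩

theorem ZS_normal {Q : Subgroup G} (hQ : Q.Normal) : (ZS Q).Normal := by
  constructor
  intro x hx g
  rw [mem_ZS] at hx ⊢
  refine ⟨hQ.conj_mem x hx.1 g, ?_⟩
  intro y hy
  have hy' : g⁻¹ * y * g ∈ Q := by
    have h0 := hQ.conj_mem y hy g⁻¹
    rw [inv_inv] at h0
    exact h0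
  have h1 := hx.2 _ hy'
  have e1 : y * (g * x * g⁻¹) = g * ((g⁻¹ * y * g) * x) * g⁻¹ := by group
  have e2 : g * x * g⁻¹ * y = g * (x * (g⁻¹ * y * g)) * g⁻¹ := by group
  rw [e1, e2, h1]

theorem refine_normal (hA : Group.IsNilpotent A) {p : ℕ} [Fact p.Prime] {M : Subgroup G}
    (hM : M.Normal) (hMp : IsPGroup p M) (hMab : ∀ x ∈ M, ∀ y ∈ M, x * y = y * x)
    (hM1 : M ≠ ⊥) (hfac : ∀ g : G, ∃ a ∈ A, ∃ m ∈ M, g = a * m) :
    (M ⊓ Subgroup.centralizer (Sp A p : Set G)).Normal ∧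
      M ⊓ Subgroup.centralizer (Sp A p : Set G) ≠ ⊥ := by
  constructor
  · constructor
    intro x hx g
    obtain ⟨hxM, hxC⟩ := Subgroup.mem_inf.mp hx
    obtain ⟨a, ha, m, hm, rfl⟩ := hfac g
    have e0 : a * m * x * (a * m)⁻¹ = a * x * a⁻¹ := by
      have h0 : m * x = x * m := hMab m hm x hxM
      calc a * m * x * (a * m)⁻¹ = a * (m * x) * m⁻¹ * a⁻¹ := by group
        _ = a * (x * m) * m⁻¹ * a⁻¹ := by rw [h0]
        _ = a * x * a⁻¹ := by group
    rw [e0]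
    refine Subgroup.mem_inf.mpr ⟨hM.conj_mem x hxM a, ?_⟩
    rw [Subgroup.mem_centralizer_iff]
    intro h hh
    have hh' : a⁻¹ * h * a ∈ Sp A p :=
      conj_inv_mem_of_mem_normalizer (le_normalizer_Sp hA p ha) hh
    have h1 := Subgroup.mem_centralizer_iff.mp hxC _ hh'
    have e1 : h * (a * x * a⁻¹) = a * ((a⁻¹ * h * a) * x) * a⁻¹ := by group
    have e2 : a * x * a⁻¹ * h = a * (x * (a⁻¹ * h * a)) * a⁻¹ := by group
    rw [e1, e2, h1]
  · haveI := hM
    have hP : IsPGroup p (Sp A p ⊔ M : Subgroup G) :=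
      IsPGroup.to_sup_of_normal_right (Sp_isPGroup A p) hMp
    obtain ⟨a, haM, ha1, hac⟩ := normal_inf_center hP (le_sup_right : M ≤ Sp A p ⊔ M)
      (fun x _ => by
        rw [Subgroup.normalizer_eq_top_iff.mpr hM]
        exact Subgroup.mem_top x) hM1
    intro hbot
    have h0 : a ∈ M ⊓ Subgroup.centralizer (Sp A p : Set G) := by
      refine Subgroup.mem_inf.mpr ⟨haM, ?_⟩
      rw [Subgroup.mem_centralizer_iff]
      intro h hh
      exact hac h (Subgroup.mem_sup_left hh)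
    rw [hbot, Subgroup.mem_bot] at h0
    exact ha1 h0

theorem Sp_eq_bot_of_centralizes {p : ℕ} [Fact p.Prime] {M : Subgroup G}
    (hM : M.Normal) (hfac : ∀ g : G, ∃ a ∈ A, ∃ m ∈ M, g = a * m)
    (hcen : M ≤ Subgroup.centralizer (Sp A p : Set G))
    (hstar : ∀ N : Subgroup G, N.Normal → N ≠ ⊥ → N ≤ A → False) : Sp A p = ⊥ := by
  have hN₀ : (A ⊓ Subgroup.centralizer (M : Set G)).Normal := by
    constructor
    intro x hx g
    obtain ⟨hxA, hxC⟩ := Subgroup.mem_inf.mp hx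
    obtain ⟨a, ha, m, hm, rfl⟩ := hfac g
    have e0 : a * m * x * (a * m)⁻¹ = a * x * a⁻¹ := by
      have h0 : m * x = x * m := Subgroup.mem_centralizer_iff.mp hxC m hm
      calc a * m * x * (a * m)⁻¹ = a * (m * x) * m⁻¹ * a⁻¹ := by group
        _ = a * (x * m) * m⁻¹ * a⁻¹ := by rw [h0]
        _ = a * x * a⁻¹ := by group
    rw [e0]
    refine Subgroup.mem_inf.mpr ⟨mul_mem (mul_mem ha hxA) (inv_mem ha), ?_⟩
    rw [Subgroup.mem_centralizer_iff]
    intro m' hm'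
    have hm'' : a⁻¹ * m' * a ∈ M := by
      have h0 := hM.conj_mem m' hm' a⁻¹
      rw [inv_inv] at h0
      exact h0
    have h1 := Subgroup.mem_centralizer_iff.mp hxC _ hm''
    have e1 : m' * (a * x * a⁻¹) = a * ((a⁻¹ * m' * a) * x) * a⁻¹ := by group
    have e2 : a * x * a⁻¹ * m' = a * (x * (a⁻¹ * m' * a)) * a⁻¹ := by group
    rw [e1, e2, h1]
  by_contra hS
  refine hstar _ hN₀ ?_ inf_le_left
  intro hbot
  apply hS
  rw [eq_bot_iff, ← hbot]
  apply le_inf (Sp_le A p)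
  intro h hh
  rw [Subgroup.mem_centralizer_iff]
  intro m hm
  exact (Subgroup.mem_centralizer_iff.mp (hcen hm) h hh).symm

/-- the induction hypothesis -/
def IH3 (G : Type u) [Group G] [Finite G] : Prop :=
  ∀ (X : Type u) [Group X] [Finite X], Nat.card X < Nat.card G → ∀ A B : Subgroup X,
    Fac A B → (A ≠ ⊤ ∨ B ≠ ⊤) → ∃ N : Subgroup X, N.Normal ∧ N ≠ ⊤ ∧ (A ≤ N ∨ B ≤ N)

theorem star (ih : IH3 G) (f : Fac A B)
    (hno : ∀ N : Subgroup G, N.Normal → N ≠ ⊤ → (A ≤ N ∨ B ≤ N) → False)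
    {M : Subgroup G} (hM : M.Normal) (hM1 : M ≠ ⊥) :
    ∀ g : G, ∃ a ∈ A, ∃ m ∈ M, g = a * m := by
  haveI := hM
  by_contra hcon
  have hA' : A.map (QuotientGroup.mk' M) ≠ ⊤ := by
    intro h
    apply hcon
    intro g
    have hg : QuotientGroup.mk' M g ∈ A.map (QuotientGroup.mk' M) := by
      rw [h]
      exact Subgroup.mem_top _
    obtain ⟨a, ha, hag⟩ := hg
    refine ⟨a, ha, a⁻¹ * g, ?_, by group⟩
    exact QuotientGroup.eq.mp hag
  obtain ⟨N', hN', hN't, hAB⟩ := ih (G ⧸ M) (card_quot_lt M hM1) _ _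
    (f.map (QuotientGroup.mk' M) (QuotientGroup.mk'_surjective M)) (Or.inl hA')
  refine hno (N'.comap (QuotientGroup.mk' M)) (hN'.comap _) ?_ ?_
  · intro h
    apply hN't
    rw [eq_top_iff]
    intro q _
    obtain ⟨g, rfl⟩ := QuotientGroup.mk'_surjective M q
    have h0 : g ∈ N'.comap (QuotientGroup.mk' M) := by
      rw [h]
      exact Subgroup.mem_top g
    exact h0
  · rcases hAB with h | h
    · exact Or.inl (Subgroup.map_le_iff_le_comap.mp h)
    · exact Or.inr (Subgroup.map_le_iff_le_comap.mp h)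

theorem kw_normal_step (ih : IH3 G) (f : Fac A B) (hne : A ≠ ⊤ ∨ B ≠ ⊤) :
    ∃ N : Subgroup G, N.Normal ∧ N ≠ ⊤ ∧ (A ≤ N ∨ B ≤ N) := by
  by_contra hcon
  have hno : ∀ N : Subgroup G, N.Normal → N ≠ ⊤ → (A ≤ N ∨ B ≤ N) → False :=
    fun N h1 h2 h3 => hcon ⟨N, h1, h2, h3⟩
  have hno' : ∀ N : Subgroup G, N.Normal → N ≠ ⊤ → (B ≤ N ∨ A ≤ N) → False :=
    fun N h1 h2 h3 => hno N h1 h2 h3.symm
  have hAt : A ≠ ⊤ := by
    intro hA
    have hB : B ≠ ⊤ := by
      rcases hne with h | h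
      · exact (h hA).elim
      · exact h
    have hG : Group.IsNilpotent G := by
      subst hA
      haveI := f.nA
      exact Group.nilpotent_of_surjective (Subgroup.topEquiv (G := G)).toMonoidHom
        (Subgroup.topEquiv (G := G)).surjective
    obtain ⟨N, hN, hNt, hBN⟩ := nilp_normal hG hB
    exact hno N hN hNt (Or.inr hBN)
  have hBt : B ≠ ⊤ := by
    intro hB
    have hG : Group.IsNilpotent G := by
      subst hB
      haveI := f.nB
      exact Group.nilpotent_of_surjective (Subgroup.topEquiv (G := G)).toMonoidHom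
        (Subgroup.topEquiv (G := G)).surjective
    obtain ⟨N, hN, hNt, hAN⟩ := nilp_normal hG hAt
    exact hno N hN hNt (Or.inl hAN)
  haveI hsolv : Group.IsSolvable G := kw_solvable _ G le_rfl A B f
  haveI : Nontrivial G := by
    by_contra hnt
    rw [not_nontrivial_iff_subsingleton] at hnt
    apply hAt
    rw [eq_top_iff]
    intro g _
    rw [Subsingleton.elim g 1]
    exact A.one_mem
  obtain ⟨p, hp, Q, hQn, hQ1, hQ⟩ := exists_normal_pgroup G
  haveI : Fact p.Prime := ⟨hp⟩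
  have hM₁n : (ZS Q).Normal := ZS_normal hQn
  have hM₁p : IsPGroup p (ZS Q) := hQ.to_le (ZS_le Q)
  have hM₁1 : ZS Q ≠ ⊥ := ZS_ne_bot hQ.isNilpotent hQ1
  have hM₁ab : ∀ x ∈ ZS Q, ∀ y ∈ ZS Q, x * y = y * x :=
    fun x hx y hy => (mem_ZS.mp hy).2 x (ZS_le Q hx)
  have hstarA : ∀ {M : Subgroup G}, M.Normal → M ≠ ⊥ → ∀ g : G, ∃ a ∈ A, ∃ m ∈ M, g = a * m :=
    fun hM hM1 => star ih f hno hM hM1
  have hstarB : ∀ {M : Subgroup G}, M.Normal → M ≠ ⊥ → ∀ g : G, ∃ b ∈ B, ∃ m ∈ M, g = b * m :=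
    fun hM hM1 => star ih f.symm hno' hM hM1
  obtain ⟨M₂, hM₂def⟩ :
      ∃ M₂ : Subgroup G, M₂ = ZS Q ⊓ Subgroup.centralizer (Sp A p : Set G) := ⟨_, rfl⟩
  obtain ⟨hM₂n, hM₂1⟩ := refine_normal f.nA hM₁n hM₁p hM₁ab hM₁1 (hstarA hM₁n hM₁1)
  rw [← hM₂def] at hM₂n hM₂1
  have hM₂le : M₂ ≤ ZS Q := by
    rw [hM₂def]
    exact inf_le_left
  have hM₂c : M₂ ≤ Subgroup.centralizer (Sp A p : Set G) := by
    rw [hM₂def]
    exact inf_le_right
  have hM₂p : IsPGroup p M₂ := hM₁p.to_le hM₂le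
  have hM₂ab : ∀ x ∈ M₂, ∀ y ∈ M₂, x * y = y * x :=
    fun x hx y hy => hM₁ab x (hM₂le hx) y (hM₂le hy)
  obtain ⟨M, hMdef⟩ :
      ∃ M : Subgroup G, M = M₂ ⊓ Subgroup.centralizer (Sp B p : Set G) := ⟨_, rfl⟩
  obtain ⟨hMn, hM1⟩ := refine_normal f.nB hM₂n hM₂p hM₂ab hM₂1 (hstarB hM₂n hM₂1)
  rw [← hMdef] at hMn hM1
  have hMle : M ≤ M₂ := by
    rw [hMdef]
    exact inf_le_left
  have hMp : IsPGroup p M := hM₂p.to_le hMle
  have hMcA : M ≤ Subgroup.centralizer (Sp A p : Set G) := hMle.trans hM₂c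
  have hMcB : M ≤ Subgroup.centralizer (Sp B p : Set G) := by
    rw [hMdef]
    exact inf_le_right
  have hfacA := hstarA hMn hM1
  have hfacB := hstarB hMn hM1
  have hcoreA : ∀ N : Subgroup G, N.Normal → N ≠ ⊥ → N ≤ A → False := by
    intro N hN hN1 hNA
    apply hAt
    rw [eq_top_iff]
    intro g _
    obtain ⟨a, ha, n, hn, rfl⟩ := hstarA hN hN1 g
    exact mul_mem ha (hNA hn)
  have hcoreB : ∀ N : Subgroup G, N.Normal → N ≠ ⊥ → N ≤ B → False := by
    intro N hN hN1 hNB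
    apply hBt
    rw [eq_top_iff]
    intro g _
    obtain ⟨b, hb, n, hn, rfl⟩ := hstarB hN hN1 g
    exact mul_mem hb (hNB hn)
  have hSA : Sp A p = ⊥ := Sp_eq_bot_of_centralizes hMn hfacA hMcA hcoreA
  have hSB : Sp B p = ⊥ := Sp_eq_bot_of_centralizes hMn hfacB hMcB hcoreB
  have hpA : ¬ p ∣ Nat.card A := fun h => Sp_ne_bot h hSA
  have hpB : ¬ p ∣ Nat.card B := fun h => Sp_ne_bot h hSB
  obtain ⟨k, hk⟩ := IsPGroup.iff_card.mp hMp
  have hcopA : (Nat.card M).Coprime (Nat.card A) := by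
    rw [hk]
    exact Nat.Coprime.pow_left k ((Nat.Prime.coprime_iff_not_dvd hp).mpr hpA)
  have hcopB : (Nat.card M).Coprime (Nat.card B) := by
    rw [hk]
    exact Nat.Coprime.pow_left k ((Nat.Prime.coprime_iff_not_dvd hp).mpr hpB)
  have hMA : M.IsComplement' A := by
    apply isComplement'_of_disjoint_of_mul (Subgroup.disjoint_of_coprime_natCard hcopA).eq_bot
    intro g
    obtain ⟨a, ha, m, hm, e⟩ := hfacA g⁻¹
    refine ⟨m⁻¹, inv_mem hm, a⁻¹, inv_mem ha, ?_⟩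
    rw [← mul_inv_rev, ← e, inv_inv]
  have hMB : M.IsComplement' B := by
    apply isComplement'_of_disjoint_of_mul (Subgroup.disjoint_of_coprime_natCard hcopB).eq_bot
    intro g
    obtain ⟨b, hb, m, hm, e⟩ := hfacB g⁻¹
    refine ⟨m⁻¹, inv_mem hm, b⁻¹, inv_mem hb, ?_⟩
    rw [← mul_inv_rev, ← e, inv_inv]
  have hidx : M.index = Nat.card A := hMA.symm.index_eq_card
  haveI := hMn
  haveI hMnil : Group.IsNilpotent M := hMp.isNilpotent
  obtain ⟨n, -, hconj⟩ := sz_conj M (by rw [hidx]; exact hcopA) A B hMA hMB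
    (Or.inl IsNilpotent.to_isSolvable)
  obtain ⟨a, ha, b, hb, e⟩ := f.fac n⁻¹
  rw [← hconj, mem_conj_smul_iff] at hb
  have hb2 : b = a⁻¹ * n⁻¹ := by rw [e]; group
  rw [hb2] at hb
  have e3 : n⁻¹ * (a⁻¹ * n⁻¹) * n = n⁻¹ * a⁻¹ := by group
  rw [e3] at hb
  have hnA : n⁻¹ ∈ A := by
    have e4 : n⁻¹ = (n⁻¹ * a⁻¹) * a := by group
    rw [e4]
    exact mul_mem hb ha
  have hnA' : n ∈ A := by
    have h0 := inv_mem hnA
    rw [inv_inv] at h0
    exact h0
  have hBA : B = A := by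
    rw [← hconj]
    exact conj_smul_eq_of_mem_normalizer (Subgroup.le_normalizer hnA')
  apply hAt
  rw [eq_top_iff]
  intro g _
  obtain ⟨a', ha', b', hb', rfl⟩ := f.fac g
  rw [hBA] at hb'
  exact mul_mem ha' hb'

end NormalSub

/-- if `G = AB` with `A`, `B` nilpotent, not both equal to `G`, then a proper normal subgroup
contains `A` or `B` -/
theorem kw_normal : ∀ (n : ℕ) (G : Type u) [Group G] [Finite G], Nat.card G ≤ n →
    ∀ A B : Subgroup G, Fac A B → (A ≠ ⊤ ∨ B ≠ ⊤) →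
    ∃ N : Subgroup G, N.Normal ∧ N ≠ ⊤ ∧ (A ≤ N ∨ B ≤ N) := by
  intro n
  induction n using Nat.strong_induction_on with
  | _ n ih =>
    intro G _ _ hn A B f hne
    exact kw_normal_step
      (fun X _ _ hX A' B' fX hne' => ih (Nat.card X) (by omega) X le_rfl A' B' fX hne') f hne

end Cfsg.Agent.Lib.Helper1.KW
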