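import Mathlib
import Cfsg.Prelude.Def_QuasithinSetup
import Cfsg.Agent.Lib.Helper1.EvenChar
import Cfsg.Agent.Lib.Helper1.FourCent

set_option autoImplicit false

namespace Cfsg.Agent.Lib.Helper1.QtLf

open Cfsg.Agent.Lib.Helper11 Cfsg.Agent.Lib.Helper1.EvenChar Cfsg.Agent.Lib.Helper1.FourCent

universe u

variable {G : Type u} [Group G]

/-- a perfect subgroup has no nontrivial 2-group quotient -/
theorem perfect_le [Finite G] (K N : Subgroup G) (hperf : ⁅K, K⁆ = K) (hN : N ≤ K)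
    (hnorm : K ≤ Subgroup.normalizer (N : Set G)) (h2 : ∀ k ∈ K, ∃ a : ℕ, k ^ (2 ^ a) ∈ N) :
    K ≤ N := by
  haveI hNn : (N.subgroupOf K).Normal :=
    (Subgroup.normal_subgroupOf_iff_le_normalizer hN).mpr hnorm
  have hp : IsPGroup 2 (↥K ⧸ N.subgroupOf K) := by
    intro q
    obtain ⟨k, rfl⟩ := QuotientGroup.mk_surjective q
    obtain ⟨a, ha⟩ := h2 k k.2
    refine ⟨a, ?_⟩
    rw [← QuotientGroup.mk_pow, QuotientGroup.eq_one_iff]
    exact Subgroup.mem_subgroupOf.mpr (by simpa using ha)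
  haveI : Group.IsNilpotent (↥K ⧸ N.subgroupOf K) := hp.isNilpotent
  have hcomm : commutator ↥K = ⊤ := by
    apply Subgroup.map_injective K.subtype_injective
    rw [commutator_def, Subgroup.map_commutator, ← MonoidHom.range_eq_map, Subgroup.range_subtype]
    exact hperf
  have hcq : commutator (↥K ⧸ N.subgroupOf K) = ⊤ := by
    rw [commutator_def]
    have h1 : (⊤ : Subgroup (↥K ⧸ N.subgroupOf K)) =
        (⊤ : Subgroup ↥K).map (QuotientGroup.mk' (N.subgroupOf K)) :=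
      (Subgroup.map_top_of_surjective _ (QuotientGroup.mk'_surjective _)).symm
    rw [h1, ← Subgroup.map_commutator, ← commutator_def, hcomm]
  by_contra hcon
  have hnt : Nontrivial (↥K ⧸ N.subgroupOf K) := by
    by_contra hnt
    rw [not_nontrivial_iff_subsingleton] at hnt
    have htop := QuotientGroup.subgroup_eq_top_of_subsingleton (N.subgroupOf K) hnt
    rw [Subgroup.subgroupOf_eq_top] at htop
    exact hcon htop
  have hlt := Group.IsSolvable.commutator_lt_top_of_nontrivial (↥K ⧸ N.subgroupOf K)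
  rw [hcq] at hlt
  exact lt_irrefl _ hlt

theorem oddGenerated_eq_of_perfect [Finite G] (K : Subgroup G) (hperf : ⁅K, K⁆ = K) :
    Cfsg.oddGenerated K = K := by
  have hle : Cfsg.oddGenerated K ≤ K := by
    unfold Cfsg.oddGenerated
    rw [Subgroup.closure_le]
    intro x hx
    exact hx.1
  apply le_antisymm hle
  apply perfect_le K _ hperf hle
  · apply le_normalizer_of_conj
    intro k hk v hv
    unfold Cfsg.oddGenerated at hv ⊢
    induction hv using Subgroup.closure_induction with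
    | mem x hx =>
      apply Subgroup.subset_closure
      refine ⟨K.mul_mem (K.mul_mem hk hx.1) (K.inv_mem hk), ?_⟩
      have h1 : orderOf (k * x * k⁻¹) = orderOf x := (MulAut.conj k).orderOf_eq x
      rw [h1]; exact hx.2
    | one => simp
    | mul a b _ _ iha ihb =>
      have e : k * (a * b) * k⁻¹ = (k * a * k⁻¹) * (k * b * k⁻¹) := by group
      rw [e]; exact Subgroup.mul_mem _ iha ihb
    | inv a _ iha =>
      have e : k * a⁻¹ * k⁻¹ = (k * a * k⁻¹)⁻¹ := by group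
      rw [e]; exact Subgroup.inv_mem _ iha
  · intro k hk
    obtain ⟨a, m, hm, hkm⟩ := Nat.exists_eq_two_pow_mul_odd (orderOf_pos k).ne'
    refine ⟨a, ?_⟩
    unfold Cfsg.oddGenerated
    apply Subgroup.subset_closure
    refine ⟨K.pow_mem hk _, ?_⟩
    have h1 : (k ^ 2 ^ a) ^ m = 1 := by
      rw [← pow_mul, ← hkm, pow_orderOf_eq_one]
    exact Odd.of_dvd_nat hm (orderOf_dvd_of_pow_eq_one h1)

theorem map_pCore_le_relPCore [Finite G] (M : Subgroup G) :
    (Cfsg.pCore 2 ↥M).map M.subtype ≤ relPCore 2 M := by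
  apply le_relPCore (Subgroup.map_subtype_le _)
  · exact le_normalizer_map_subtype_ec _ (pCore_normal' 2)
  · exact (pCore_isPGroup 2).map _

theorem pCoreTwoOf_eq [Finite G] (Y : Subgroup G) : Cfsg.pCoreTwoOf Y = relPCore 2 Y := by
  apply le_antisymm (map_pCore_le_relPCore Y)
  intro g hg
  exact ⟨⟨g, relPCore_le 2 Y hg⟩, mem_pCore_of_mem_relPCore Y hg, rfl⟩

theorem relPCore_le_sylow [Finite G] (T : Sylow 2 G) (M : Subgroup G)
    (hTM : (T : Subgroup G) ≤ M) : relPCore 2 M ≤ (T : Subgroup G) := by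
  have hn : (T : Subgroup G) ≤ Subgroup.normalizer (relPCore 2 M : Set G) :=
    hTM.trans (Subgroup.le_normalizer.trans (relPCore_normalizer 2 M))
  have hp : IsPGroup 2 ↥((T : Subgroup G) ⊔ relPCore 2 M) :=
    IsPGroup.to_sup_of_normal_right' T.isPGroup' (relPCore_isPGroup 2 M) hn
  have h := T.is_maximal' hp le_sup_left
  exact le_sup_right.trans h.le

theorem charTwo_of_sylow_le [Finite G] (T : Sylow 2 G) {X M : Subgroup G} (hM : CharTwo M)
    (hTX : (T : Subgroup G) ≤ X) (hXM : X ≤ M) : CharTwo X := by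
  have hR : relPCore 2 M ≤ relPCore 2 X := by
    apply le_relPCore ((relPCore_le_sylow T M (hTX.trans hXM)).trans hTX)
    · exact hXM.trans (Subgroup.le_normalizer.trans (relPCore_normalizer 2 M))
    · exact relPCore_isPGroup 2 M
  apply charTwo_of_elts
  intro y hy ho hyc
  exact hM.elt (hXM hy) ho (Subgroup.centralizer_le hR hyc)

/-- in a group of even characteristic, a subgroup containing a Sylow 2-subgroup and with
nontrivial `O_2` has characteristic 2 -/
theorem charTwo_of_sylow_core [Finite G] (hE : Cfsg.IsOfEvenCharacteristic G) (T : Sylow 2 G)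
    (X : Subgroup G) (hTX : (T : Subgroup G) ≤ X) (hO : Cfsg.pCore 2 ↥X ≠ ⊥) : CharTwo X := by
  have hQne : relPCore 2 X ≠ ⊥ := by
    intro hb
    apply hO
    have h1 := map_pCore_le_relPCore X
    rw [hb, le_bot_iff] at h1
    exact (Subgroup.map_eq_bot_iff_of_injective _ X.subtype_injective).mp h1
  have hXM : X ≤ Subgroup.normalizer (relPCore 2 X : Set G) :=
    Subgroup.le_normalizer.trans (relPCore_normalizer 2 X)
  have hM : CharTwo (Subgroup.normalizer (relPCore 2 X : Set G)) :=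
    charTwo_of_subtype _
      (hE _ ⟨relPCore 2 X, relPCore_isPGroup 2 X, hQne, rfl⟩ ⟨T, hTX.trans hXM⟩)
  exact charTwo_of_sylow_le T hM hTX hXM

theorem map_le_normalizer_map (X : Subgroup G) (H K' : Subgroup ↥X) (h_le : H ≤ K')
    (hN : (H.subgroupOf K').Normal) :
    K'.map X.subtype ≤ Subgroup.normalizer ((H.map X.subtype : Subgroup G) : Set G) := by
  have h1 : K' ≤ Subgroup.normalizer (H : Set ↥X) :=
    (Subgroup.normal_subgroupOf_iff_le_normalizer h_le).mp hN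
  apply le_normalizer_of_conj
  rintro _ ⟨k, hk, rfl⟩ _ ⟨h, hh, rfl⟩
  refine ⟨k * h * k⁻¹, (Subgroup.mem_normalizer_iff.mp (h1 hk) h).mp hh, ?_⟩
  simp

theorem map_top_subtype (X : Subgroup G) : (⊤ : Subgroup ↥X).map X.subtype = X := by
  rw [← MonoidHom.range_eq_map, Subgroup.range_subtype]

theorem charTwo_of_subnormal [Finite G] (X : Subgroup G) (hX : CharTwo X) :
    ∀ H : Subgroup ↥X, H.IsSubnormal → CharTwo (H.map X.subtype) := by
  intro H hH
  induction hH with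
  | top => rw [map_top_subtype]; exact hX
  | step H K' h_le hK' hN ih =>
    exact charTwo_of_normal ih (Subgroup.map_mono h_le) (map_le_normalizer_map X H K' h_le hN)

theorem calHe_of_charTwo [Finite G] (K : Subgroup G) (h : CharTwo K) : K ∈ Cfsg.calHe G := by
  show Cfsg.generalizedFittingSubgroup ↥K = Cfsg.pCore 2 ↥K
  apply genFitting_eq_pCore_of_elts
  intro y ho hyc
  have hy1 : (y : G) = 1 := by
    apply h.elt y.2
    · rwa [Subgroup.orderOf_coe]
    · rw [Subgroup.mem_centralizer_iff]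
      intro q hq
      have h1 := (Subgroup.mem_centralizer_iff.mp hyc) _ (mem_pCore_of_mem_relPCore K hq)
      exact congrArg Subtype.val h1
  exact Subtype.ext hy1

/-- the involutions (and 1) of the centre of `Q` -/
def IZ (Q : Subgroup G) : Set G := {x | x ∈ Q ∧ (∀ q ∈ Q, q * x = x * q) ∧ x * x = 1}

theorem IZ_one (Q : Subgroup G) : (1 : G) ∈ IZ Q :=
  ⟨Q.one_mem, fun q _ => by rw [mul_one, one_mul], mul_one 1⟩

theorem IZ_mul {Q : Subgroup G} {x x' : G} (hx : x ∈ IZ Q) (hx' : x' ∈ IZ Q) :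
    x * x' ∈ IZ Q := by
  refine ⟨Q.mul_mem hx.1 hx'.1, ?_, ?_⟩
  · intro q hq
    have h1 := hx.2.1 q hq
    have h2 := hx'.2.1 q hq
    calc q * (x * x') = (q * x) * x' := by group
      _ = x * (q * x') := by rw [h1]; group
      _ = x * x' * q := by rw [h2]; group
  · have h1 := hx'.2.1 x hx.1
    calc x * x' * (x * x') = x * (x' * x) * x' := by group
      _ = x * (x * x') * x' := by rw [← h1]
      _ = (x * x) * (x' * x') := by group
      _ = 1 := by rw [hx.2.2, hx'.2.2, one_mul]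

theorem IZ_inv {Q : Subgroup G} {x : G} (hx : x ∈ IZ Q) : x⁻¹ = x :=
  inv_eq_of_mul_eq_one_left hx.2.2

theorem IZ_conj {Q : Subgroup G} {g x : G} (hg : g ∈ Subgroup.normalizer (Q : Set G))
    (hx : x ∈ IZ Q) : g * x * g⁻¹ ∈ IZ Q := by
  refine ⟨(Subgroup.mem_normalizer_iff.mp hg x).mp hx.1, ?_, ?_⟩
  · intro q hq
    have hq' : g⁻¹ * q * g ∈ Q := (Subgroup.mem_normalizer_iff''.mp hg q).mp hq
    have h1 := hx.2.1 _ hq'
    calc q * (g * x * g⁻¹) = g * ((g⁻¹ * q * g) * x) * g⁻¹ := by group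
      _ = g * (x * (g⁻¹ * q * g)) * g⁻¹ := by rw [h1]
      _ = g * x * g⁻¹ * q := by group
  · calc g * x * g⁻¹ * (g * x * g⁻¹) = g * (x * x) * g⁻¹ := by group
      _ = 1 := by rw [hx.2.2]; group

theorem IZ_phi {Q : Subgroup G} {y x : G} (hy : y ∈ Subgroup.normalizer (Q : Set G))
    (hx : x ∈ IZ Q) : x⁻¹ * (y * x * y⁻¹) ∈ IZ Q := by
  have hxi : x⁻¹ ∈ IZ Q := by rw [IZ_inv hx]; exact hx
  exact IZ_mul hxi (IZ_conj hy hx)

theorem odd_conj_trivial (y x c : G) (hodd : Odd (orderOf y)) (hc : y * x * y⁻¹ = x * c)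
    (hyc : y * c = c * y) (hcc : c * c = 1) : c = 1 := by
  have hpow := pow_conj_eq_ec y x c hc hyc (orderOf y)
  rw [pow_orderOf_eq_one, one_mul, inv_one, mul_one] at hpow
  have hc1 : c ^ orderOf y = 1 := by
    have : x * c ^ orderOf y = x * 1 := by rw [mul_one]; exact hpow.symm
    exact mul_left_cancel this
  obtain ⟨k, hk⟩ := hodd
  rw [hk, pow_succ, pow_mul, pow_two, hcc, one_pow, one_mul] at hc1
  exact hc1

/-- the subgroup `[Ω₁(Z(Q)), y]` for `y` normalizing `Q` -/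
def commSub (Q : Subgroup G) (y : G) (hy : y ∈ Subgroup.normalizer (Q : Set G)) : Subgroup G where
  carrier := {d | ∃ x ∈ IZ Q, d = x⁻¹ * (y * x * y⁻¹)}
  one_mem' := ⟨1, IZ_one Q, by simp⟩
  mul_mem' := by
    rintro _ _ ⟨x, hx, rfl⟩ ⟨x', hx', rfl⟩
    refine ⟨x * x', IZ_mul hx hx', ?_⟩
    have h1 : Commute (x⁻¹ * (y * x * y⁻¹)) x' := hx'.2.1 _ (IZ_phi hy hx).1
    have h2 : x'⁻¹ * (x⁻¹ * (y * x * y⁻¹)) = (x⁻¹ * (y * x * y⁻¹)) * x'⁻¹ := h1.inv_right.eq.symm
    calc x⁻¹ * (y * x * y⁻¹) * (x'⁻¹ * (y * x' * y⁻¹))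
        = ((x⁻¹ * (y * x * y⁻¹)) * x'⁻¹) * (y * x' * y⁻¹) := by group
      _ = (x'⁻¹ * (x⁻¹ * (y * x * y⁻¹))) * (y * x' * y⁻¹) := by rw [h2]
      _ = (x * x')⁻¹ * (y * (x * x') * y⁻¹) := by group
  inv_mem' := by
    rintro _ ⟨x, hx, rfl⟩
    exact ⟨x, hx, IZ_inv (IZ_phi hy hx)⟩

theorem step_up [Finite G] (W W' : Subgroup G) (hWW' : W ≤ W')
    (hn : W' ≤ Subgroup.normalizer (W : Set G)) (y : G) (hy : y ∈ W) (hodd : Odd (orderOf y))
    (h : ∀ x ∈ IZ (relPCore 2 W), y * x = x * y) :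
    ∀ x ∈ IZ (relPCore 2 W'), y * x = x * y := by
  intro x hx
  have hQ'n : W' ≤ Subgroup.normalizer (relPCore 2 W' : Set G) :=
    Subgroup.le_normalizer.trans (relPCore_normalizer 2 W')
  have hf1 : (relPCore 2 W' ⊓ W : Subgroup G) ≤ relPCore 2 W := by
    apply le_relPCore inf_le_right
    · exact le_normalizer_inf_ec (hWW'.trans hQ'n) Subgroup.le_normalizer
    · exact (relPCore_isPGroup 2 W').to_le inf_le_left
  have hf2 : relPCore 2 W ≤ relPCore 2 W' := relPCore_mono_of_normal 2 hWW' hn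
  have hyn : y ∈ Subgroup.normalizer (relPCore 2 W' : Set G) := hQ'n (hWW' hy)
  have hcI' : x⁻¹ * (y * x * y⁻¹) ∈ IZ (relPCore 2 W') := IZ_phi hyn hx
  have hcW : x⁻¹ * (y * x * y⁻¹) ∈ W := by
    have hxn : x ∈ Subgroup.normalizer (W : Set G) := hn (relPCore_le 2 W' hx.1)
    have h1 : x⁻¹ * y * x ∈ W := (Subgroup.mem_normalizer_iff''.mp hxn y).mp hy
    have e : x⁻¹ * (y * x * y⁻¹) = (x⁻¹ * y * x) * y⁻¹ := by group
    rw [e]; exact W.mul_mem h1 (W.inv_mem hy)
  have hcI : x⁻¹ * (y * x * y⁻¹) ∈ IZ (relPCore 2 W) :=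
    ⟨hf1 (Subgroup.mem_inf.mpr ⟨hcI'.1, hcW⟩), fun q hq => hcI'.2.1 q (hf2 hq), hcI'.2.2⟩
  have hyc := h _ hcI
  have hconj : y * x * y⁻¹ = x * (x⁻¹ * (y * x * y⁻¹)) := by group
  have hc1 := odd_conj_trivial y x _ hodd hconj hyc hcI.2.2
  have hconj' : y * x * y⁻¹ = x := by
    calc y * x * y⁻¹ = x * (x⁻¹ * (y * x * y⁻¹)) := hconj
      _ = x := by rw [hc1, mul_one]
  calc y * x = (y * x * y⁻¹) * y := by group
    _ = x * y := by rw [hconj']

theorem exists_central_of_normal [Finite G] (R D : Subgroup G) (hR : IsPGroup 2 R) (hDR : D ≤ R)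
    (hn : R ≤ Subgroup.normalizer (D : Set G)) (hD : D ≠ ⊥) :
    ∃ d ∈ D, d ≠ 1 ∧ ∀ r ∈ R, r * d = d * r := by
  haveI : Group.IsNilpotent R := hR.isNilpotent
  haveI : (D.subgroupOf R).Normal := (Subgroup.normal_subgroupOf_iff_le_normalizer hDR).mpr hn
  have hne : D.subgroupOf R ≠ ⊥ := by
    intro h
    apply hD
    rw [Subgroup.subgroupOf_eq_bot] at h
    have := disjoint_iff.mp h
    rwa [inf_eq_left.mpr hDR] at this
  have hcen := Cfsg.Agent.Lib.Helper12.normal_inf_center_ne_bot' (D.subgroupOf R) hne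
  obtain ⟨t, ht, ht1⟩ : ∃ t ∈ D.subgroupOf R ⊓ Subgroup.center R, t ≠ 1 := by
    by_contra hcon
    exact hcen ((Subgroup.eq_bot_iff_forall _).mpr
      (fun t ht => by_contra (fun h1 => hcon ⟨t, ht, h1⟩)))
  refine ⟨(t : G), Subgroup.mem_subgroupOf.mp ht.1, fun h => ht1 (Subtype.ext h), ?_⟩
  intro r hr
  have := (Subgroup.mem_center_iff.mp ht.2) ⟨r, hr⟩
  exact congrArg Subtype.val this

theorem step_down [Finite G] (W W' : Subgroup G) (hWW' : W ≤ W')
    (hn : W' ≤ Subgroup.normalizer (W : Set G)) (y : G) (hy : y ∈ W) (hodd : Odd (orderOf y))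
    (h : ∀ x ∈ IZ (relPCore 2 W'), y * x = x * y) :
    ∀ x ∈ IZ (relPCore 2 W), y * x = x * y := by
  have hQ'n : W' ≤ Subgroup.normalizer (relPCore 2 W' : Set G) :=
    Subgroup.le_normalizer.trans (relPCore_normalizer 2 W')
  have hQn : W' ≤ Subgroup.normalizer (relPCore 2 W : Set G) :=
    hn.trans (relPCore_normalizer 2 W)
  have hf1 : (relPCore 2 W' ⊓ W : Subgroup G) ≤ relPCore 2 W := by
    apply le_relPCore inf_le_right
    · exact le_normalizer_inf_ec (hWW'.trans hQ'n) Subgroup.le_normalizer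
    · exact (relPCore_isPGroup 2 W').to_le inf_le_left
  have hf2 : relPCore 2 W ≤ relPCore 2 W' := relPCore_mono_of_normal 2 hWW' hn
  have hyn : y ∈ Subgroup.normalizer (relPCore 2 W : Set G) := hQn (hWW' hy)
  obtain ⟨D, hDdef⟩ : ∃ D, D = commSub (relPCore 2 W) y hyn := ⟨_, rfl⟩
  have hDmem : ∀ d, d ∈ D ↔ ∃ x ∈ IZ (relPCore 2 W), d = x⁻¹ * (y * x * y⁻¹) := by
    intro d; rw [hDdef]; exact Iff.rfl
  have hDI : ∀ d ∈ D, d ∈ IZ (relPCore 2 W) := by
    intro d hd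
    obtain ⟨x, hx, rfl⟩ := (hDmem d).mp hd
    exact IZ_phi hyn hx
  have hDQ' : D ≤ relPCore 2 W' := fun d hd => hf2 (hDI d hd).1
  have hQ'D : relPCore 2 W' ≤ Subgroup.normalizer (D : Set G) := by
    apply le_normalizer_of_conj
    intro r hr d hd
    obtain ⟨x, hx, rfl⟩ := (hDmem d).mp hd
    have hrW' : r ∈ W' := relPCore_le 2 W' hr
    have hx₁ : r * x * r⁻¹ ∈ IZ (relPCore 2 W) := IZ_conj (hQn hrW') hx
    rw [hDmem]
    refine ⟨r * x * r⁻¹, hx₁, ?_⟩
    have heQ' : r⁻¹ * y⁻¹ * r * y ∈ relPCore 2 W' := by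
      have h1 : y⁻¹ * r * y ∈ relPCore 2 W' :=
        (Subgroup.mem_normalizer_iff''.mp (hQ'n (hWW' hy)) r).mp hr
      have e : r⁻¹ * y⁻¹ * r * y = r⁻¹ * (y⁻¹ * r * y) := by group
      rw [e]; exact Subgroup.mul_mem _ (Subgroup.inv_mem _ hr) h1
    have heW : r⁻¹ * y⁻¹ * r * y ∈ W := by
      have h1 : r⁻¹ * y⁻¹ * r ∈ W :=
        (Subgroup.mem_normalizer_iff''.mp (hn hrW') y⁻¹).mp (W.inv_mem hy)
      exact W.mul_mem h1 hy
    have hex := hx.2.1 _ (hf1 (Subgroup.mem_inf.mpr ⟨heQ', heW⟩))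
    have key : r * (y * x * y⁻¹) * r⁻¹ = y * (r * x * r⁻¹) * y⁻¹ := by
      have e1 : r * (y * x * y⁻¹) * r⁻¹ =
          y * r * ((r⁻¹ * y⁻¹ * r * y) * x) * y⁻¹ * r⁻¹ := by group
      rw [e1, hex]; group
    calc r * (x⁻¹ * (y * x * y⁻¹)) * r⁻¹
        = (r * x * r⁻¹)⁻¹ * (r * (y * x * y⁻¹) * r⁻¹) := by group
      _ = (r * x * r⁻¹)⁻¹ * (y * (r * x * r⁻¹) * y⁻¹) := by rw [key]
  have hDbot : D = ⊥ := by
    by_contra hDne
    obtain ⟨d, hdD, hd1, hdc⟩ :=
      exists_central_of_normal (relPCore 2 W') D (relPCore_isPGroup 2 W') hDQ' hQ'D hDne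
    obtain ⟨x₀, hx₀, hdx⟩ := (hDmem d).mp hdD
    have hdI := hDI d hdD
    have hdI' : d ∈ IZ (relPCore 2 W') := ⟨hf2 hdI.1, hdc, hdI.2.2⟩
    have hyd := h d hdI'
    have hconj : y * x₀ * y⁻¹ = x₀ * d := by rw [hdx]; group
    exact hd1 (odd_conj_trivial y x₀ d hodd hconj hyd hdI.2.2)
  intro x hx
  have hmem : x⁻¹ * (y * x * y⁻¹) ∈ D := (hDmem _).mpr ⟨x, hx, rfl⟩
  rw [hDbot, Subgroup.mem_bot] at hmem
  calc y * x = x * (x⁻¹ * (y * x * y⁻¹)) * y := by group
    _ = x * y := by rw [hmem, mul_one]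

theorem chain [Finite G] (X : Subgroup G) :
    ∀ H : Subgroup ↥X, H.IsSubnormal → ∀ y ∈ H.map X.subtype, Odd (orderOf y) →
      ((∀ x ∈ IZ (relPCore 2 X), y * x = x * y) ↔
        (∀ x ∈ IZ (relPCore 2 (H.map X.subtype)), y * x = x * y)) := by
  intro H hH
  induction hH with
  | top =>
    intro y hy hodd
    rw [map_top_subtype]
  | step H K' h_le hK' hN ih =>
    intro y hy hodd
    have hle : H.map X.subtype ≤ K'.map X.subtype := Subgroup.map_mono h_le
    have hnorm := map_le_normalizer_map X H K' h_le hN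
    rw [ih y (hle hy) hodd]
    exact ⟨step_down _ _ hle hnorm y hy hodd, step_up _ _ hle hnorm y hy hodd⟩

theorem moduleV_eq_bot_iff [Finite G] (Y : Subgroup G) :
    Cfsg.moduleV Y = ⊥ ↔ ∀ x ∈ IZ (relPCore 2 Y), ∀ y ∈ Y, y * x = x * y := by
  unfold Cfsg.moduleV Cfsg.omegaOne
  rw [pCoreTwoOf_eq, Subgroup.commutator_eq_bot_iff_le_centralizer, Subgroup.closure_le]
  constructor
  · intro h x hx y hy
    have hxm : x ∈ {x : G | x ∈ relPCore 2 Y ⊓ Subgroup.centralizer (relPCore 2 Y : Set G) ∧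
        x ^ 2 = 1} := by
      refine ⟨Subgroup.mem_inf.mpr ⟨hx.1, ?_⟩, ?_⟩
      · rw [Subgroup.mem_centralizer_iff]; exact hx.2.1
      · rw [pow_two]; exact hx.2.2
    exact (Subgroup.mem_centralizer_iff.mp (h hxm)) y hy
  · intro h x hx
    obtain ⟨hx1, hx2⟩ := hx
    obtain ⟨hxQ, hxc⟩ := Subgroup.mem_inf.mp hx1
    show x ∈ Subgroup.centralizer (Y : Set G)
    rw [Subgroup.mem_centralizer_iff]
    intro y hy
    refine h x ⟨hxQ, Subgroup.mem_centralizer_iff.mp hxc, ?_⟩ y hy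
    rw [← pow_two]; exact hx2

theorem IZ_mono_sylow [Finite G] (T : Sylow 2 G) (X₁ X₂ : Subgroup G)
    (hT : (T : Subgroup G) ≤ X₁) (h12 : X₁ ≤ X₂) (h2 : CharTwo X₂) :
    IZ (relPCore 2 X₁) ⊆ IZ (relPCore 2 X₂) := by
  have hQ : relPCore 2 X₂ ≤ relPCore 2 X₁ := by
    apply le_relPCore ((relPCore_le_sylow T X₂ (hT.trans h12)).trans hT)
    · exact h12.trans (Subgroup.le_normalizer.trans (relPCore_normalizer 2 X₂))
    · exact relPCore_isPGroup 2 X₂
  intro x hx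
  have hxc : x ∈ Subgroup.centralizer (relPCore 2 X₂ : Set G) := by
    rw [Subgroup.mem_centralizer_iff]
    intro q hq
    exact hx.2.1 q (hQ hq)
  have hxQ : x ∈ relPCore 2 X₂ :=
    h2 (Subgroup.mem_inf.mpr ⟨h12 (relPCore_le 2 X₁ hx.1), hxc⟩)
  exact ⟨hxQ, fun q hq => hx.2.1 q (hQ hq), hx.2.2⟩

/-- overgroups in `ℒ(G,T)` of members of `ℒ_f(G,T)` are in `ℒ_f(G,T)` (even characteristic) -/
theorem main [Finite G] (hE : Cfsg.IsOfEvenCharacteristic G) (T : Sylow 2 G) (L K : Subgroup G)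
    (hL : L ∈ Cfsg.calLf (T : Subgroup G)) (hK : K ∈ Cfsg.calL (T : Subgroup G)) (hLK : L ≤ K) :
    K ∈ Cfsg.calLf (T : Subgroup G) := by
  obtain ⟨hLL, ⟨hLne, hLodd, hLHe⟩, hLV⟩ := hL
  have hKX : CharTwo (K ⊔ (T : Subgroup G)) := charTwo_of_sylow_core hE T _ le_sup_right hK.2.2
  have hKsub : (K.subgroupOf (K ⊔ (T : Subgroup G))).IsSubnormal := hK.1.2.2.1
  have hLsub : (L.subgroupOf (L ⊔ (T : Subgroup G))).IsSubnormal := hLL.1.2.2.1
  have hKmap : (K.subgroupOf (K ⊔ (T : Subgroup G))).map (K ⊔ (T : Subgroup G)).subtype = K :=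
    Subgroup.map_subgroupOf_eq_of_le le_sup_left
  have hLmap : (L.subgroupOf (L ⊔ (T : Subgroup G))).map (L ⊔ (T : Subgroup G)).subtype = L :=
    Subgroup.map_subgroupOf_eq_of_le le_sup_left
  have hKc : CharTwo K := by
    have h1 := charTwo_of_subnormal _ hKX _ hKsub
    rwa [hKmap] at h1
  have hKperf : ⁅K, K⁆ = K := by
    have h1 := hK.1.2.1
    have h2 := congrArg (Subgroup.map (K ⊔ (T : Subgroup G)).subtype) h1
    rw [Subgroup.map_commutator, hKmap] at h2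
    exact h2
  refine ⟨hK, ⟨?_, oddGenerated_eq_of_perfect K hKperf, calHe_of_charTwo K hKc⟩, ?_⟩
  · intro hb
    apply hLne
    rw [eq_bot_iff, ← hb]; exact hLK
  · intro hVK
    apply hLV
    rw [moduleV_eq_bot_iff] at hVK ⊢
    intro x hx
    have hgen : Cfsg.oddGenerated L ≤ Subgroup.centralizer ({x} : Set G) := by
      unfold Cfsg.oddGenerated
      rw [Subgroup.closure_le]
      intro y hy
      obtain ⟨hyL, hyodd⟩ := hy
      have hc1 := chain (K ⊔ (T : Subgroup G)) _ hKsub y (by rw [hKmap]; exact hLK hyL) hyodd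
      rw [hKmap] at hc1
      have hc2 := chain (L ⊔ (T : Subgroup G)) _ hLsub y (by rw [hLmap]; exact hyL) hyodd
      rw [hLmap] at hc2
      have h3 : ∀ x ∈ IZ (relPCore 2 (L ⊔ (T : Subgroup G))), y * x = x * y := by
        intro x' hx'
        exact hc1.mpr (fun z hz => hVK z hz y (hLK hyL)) x'
          (IZ_mono_sylow T _ _ le_sup_right (sup_le_sup_right hLK _) hKX hx')
      have h4 := hc2.mp h3 x hx
      show y ∈ Subgroup.centralizer ({x} : Set G)
      rw [Subgroup.mem_centralizer_iff]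
      intro z hz
      rw [Set.mem_singleton_iff] at hz
      rw [hz]; exact h4.symm
    intro y hy
    have h5 := hgen (hLodd.ge hy)
    exact ((Subgroup.mem_centralizer_iff.mp h5) x rfl).symm

end Cfsg.Agent.Lib.Helper1.QtLf
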