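import Mathlib
import Cfsg.Prelude.Def_LocalEven
import Cfsg.Agent.Lib.Helper17.S4Rec

set_option autoImplicit false
set_option linter.style.haveILetI false

/-! The symmetric group of degree four as a section: an element of odd order acting nontrivially
on a normal `2`-subgroup, its cube acting trivially, inverted by a `2`-element. -/

namespace Cfsg.Agent.Lib.Helper1.S4Sec

open Cfsg.Agent.Lib.Helper17

universe u

section Gen

variable {G : Type u} [Group G]

theorem mem_normalizer_of_conj [Finite G] {g : G} {S : Subgroup G}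
    (h : ∀ x ∈ S, g * x * g⁻¹ ∈ S) : g ∈ Subgroup.normalizer (S : Set G) := by
  rw [Subgroup.mem_normalizer_iff]
  intro x
  refine ⟨h x, fun hx => ?_⟩
  have key : ∀ k : ℕ, ∀ z ∈ S, g ^ k * z * (g ^ k)⁻¹ ∈ S := by
    intro k
    induction k with
    | zero => intro z hz; simpa using hz
    | succ k ih =>
      intro z hz
      have h1 := h _ (ih z hz)
      have h2 : g ^ (k + 1) * z * (g ^ (k + 1))⁻¹ = g * (g ^ k * z * (g ^ k)⁻¹) * g⁻¹ := by
        rw [pow_succ']; group
      rw [h2]; exact h1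
  obtain ⟨n, hn, hgn⟩ := isOfFinOrder_iff_pow_eq_one.mp (isOfFinOrder_of_finite g)
  have h1 := key (n - 1) _ hx
  have e : g ^ (n - 1) = g⁻¹ := by
    apply eq_inv_of_mul_eq_one_left
    rw [← pow_succ, Nat.sub_add_cancel hn, hgn]
  rw [e] at h1
  have h2 : g⁻¹ * (g * x * g⁻¹) * g⁻¹⁻¹ = x := by group
  rw [h2] at h1
  exact h1

theorem exists_central_invol [Finite G] (T : Subgroup G) (hT : IsPGroup 2 T) (hne : T ≠ ⊥) :
    ∃ a ∈ T, a ≠ 1 ∧ a ^ 2 = 1 ∧ ∀ t ∈ T, a * t = t * a := by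
  haveI : Fact (Nat.Prime 2) := ⟨Nat.prime_two⟩
  haveI : Nontrivial T := (Subgroup.nontrivial_iff_ne_bot T).mpr hne
  haveI := hT.center_nontrivial
  obtain ⟨z, hz⟩ := exists_ne (1 : Subgroup.center T)
  obtain ⟨k, hk⟩ := hT (z : T)
  have hz1 : (z : T) ≠ 1 := fun h => hz (Subtype.ext h)
  obtain ⟨j, hj, hord⟩ := (Nat.dvd_prime_pow Nat.prime_two).mp (orderOf_dvd_of_pow_eq_one hk)
  have hj0 : j ≠ 0 := by
    rintro rfl
    rw [pow_zero, orderOf_eq_one_iff] at hord
    exact hz1 hord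
  obtain ⟨i, rfl⟩ := Nat.exists_eq_succ_of_ne_zero hj0
  obtain ⟨w, hw⟩ : ∃ w : T, w = (z : T) ^ 2 ^ i := ⟨_, rfl⟩
  have hw1 : w ≠ 1 := by
    intro h
    rw [hw] at h
    have h2 := orderOf_dvd_of_pow_eq_one h
    rw [hord] at h2
    have h3 := Nat.le_of_dvd (by positivity) h2
    rw [pow_succ] at h3
    have : 0 < 2 ^ i := by positivity
    omega
  have hw2 : w ^ 2 = 1 := by
    rw [hw, ← pow_mul, ← pow_succ, ← hord, pow_orderOf_eq_one]
  refine ⟨(w : G), w.2, fun h => hw1 (Subtype.ext h), ?_, ?_⟩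
  · have := congrArg Subtype.val hw2
    simpa using this
  · intro t ht
    have hc : Commute (⟨t, ht⟩ : T) (z : T) := Subgroup.mem_center_iff.mp z.2 ⟨t, ht⟩
    have hc2 : Commute (⟨t, ht⟩ : T) w := by rw [hw]; exact hc.pow_right _
    exact (congrArg Subtype.val hc2.eq).symm

theorem four_subgroup (v v₁ v₂ : G) (h0 : v * v = 1) (h1 : v₁ * v₁ = 1) (h2 : v₂ * v₂ = 1)
    (h01 : v * v₁ = v₂) (h10 : v₁ * v = v₂) (h02 : v * v₂ = v₁) (h20 : v₂ * v = v₁)
    (h12 : v₁ * v₂ = v) (h21 : v₂ * v₁ = v) (d0 : v ≠ 1) (d1 : v₁ ≠ 1) (d2 : v₂ ≠ 1)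
    (d01 : v ≠ v₁) (d02 : v ≠ v₂) (d12 : v₁ ≠ v₂) :
    ∃ U : Subgroup G, (∀ u, u ∈ U ↔ u = 1 ∨ u = v ∨ u = v₁ ∨ u = v₂) ∧ Nat.card U = 4 := by
  let U : Subgroup G :=
    { carrier := {u | u = 1 ∨ u = v ∨ u = v₁ ∨ u = v₂}
      mul_mem' := by
        rintro a b (ha | ha | ha | ha) (hb | hb | hb | hb) <;> rw [ha, hb] <;>
          simp only [Set.mem_ofPred_eq, one_mul, mul_one, h0, h1, h2, h01, h10, h02, h20, h12, h21,
            true_or, or_true]
      one_mem' := Or.inl rfl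
      inv_mem' := by
        rintro a (ha | ha | ha | ha)
        · rw [ha, inv_one]; exact Or.inl rfl
        · rw [ha, inv_eq_of_mul_eq_one_right h0]; exact Or.inr (Or.inl rfl)
        · rw [ha, inv_eq_of_mul_eq_one_right h1]; exact Or.inr (Or.inr (Or.inl rfl))
        · rw [ha, inv_eq_of_mul_eq_one_right h2]; exact Or.inr (Or.inr (Or.inr rfl)) }
  refine ⟨U, fun u => Iff.rfl, ?_⟩
  have hset : (U : Set G) = {1, v, v₁, v₂} := by
    ext u
    simp only [Set.mem_insert_iff, Set.mem_singleton_iff]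
    exact Iff.rfl
  have e1 : ({v, v₁, v₂} : Set G).ncard = 3 := by
    rw [Set.ncard_insert_of_notMem (by simp [d01, d02]) (Set.toFinite _), Set.ncard_pair d12]
  have e2 : ({1, v, v₁, v₂} : Set G).ncard = 4 := by
    rw [Set.ncard_insert_of_notMem (by simp [d0.symm, d1.symm, d2.symm]) (Set.toFinite _), e1]
  calc Nat.card U = Nat.card (U : Set G) := rfl
    _ = (U : Set G).ncard := Nat.card_coe_set_eq _
    _ = 4 := by rw [hset, e2]

theorem norm_mul_aux (b c b1 c1 b2 c2 : G) (e1 : c * b1 = b1 * c) (e2 : c1 * b2 = b2 * c1)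
    (e3 : c * b2 = b2 * c) :
    b * c * (b1 * c1) * (b2 * c2) = (b * b1 * b2) * (c * c1 * c2) := by
  calc b * c * (b1 * c1) * (b2 * c2) = b * (c * b1) * (c1 * b2) * c2 := by simp only [mul_assoc]
    _ = b * (b1 * c) * (b2 * c1) * c2 := by rw [e1, e2]
    _ = b * b1 * (c * b2) * c1 * c2 := by simp only [mul_assoc]
    _ = b * b1 * (b2 * c) * c1 * c2 := by rw [e3]
    _ = (b * b1 * b2) * (c * c1 * c2) := by simp only [mul_assoc]

theorem conj_aux1 (y b : G) (h : y * y * y * b = b * (y * y * y)) :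
    y⁻¹ * b * y = y * y * b * (y * y)⁻¹ := by
  calc y⁻¹ * b * y = y⁻¹ * (b * (y * y * y)) * (y * y)⁻¹ := by simp [mul_assoc]
    _ = y⁻¹ * (y * y * y * b) * (y * y)⁻¹ := by rw [h]
    _ = y * y * b * (y * y)⁻¹ := by simp [mul_assoc]

theorem conj_aux2 (y b : G) (h : y * y * y * b = b * (y * y * y)) :
    (y * y)⁻¹ * b * (y * y) = y * b * y⁻¹ := by
  calc (y * y)⁻¹ * b * (y * y) = (y * y)⁻¹ * (b * (y * y * y)) * y⁻¹ := by simp [mul_assoc]
    _ = (y * y)⁻¹ * (y * y * y * b) * y⁻¹ := by rw [h]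
    _ = y * b * y⁻¹ := by simp [mul_assoc]

end Gen

set_option maxHeartbeats 1600000 in
theorem keyP : ∀ n : ℕ, ∀ (X : Type u) [Group X] [Finite X], Nat.card X = n →
    ∀ (T : Subgroup X), T.Normal → IsPGroup 2 T → ∀ y x : X, Odd (orderOf y) →
    (∃ k : ℕ, x ^ (2 ^ k) = 1) → x * y * x⁻¹ = y⁻¹ → (∀ t ∈ T, (y * y * y) * t = t * (y * y * y)) →
    (∃ t ∈ T, y * t ≠ t * y) → Cfsg.Involves (Equiv.Perm (Fin 4)) X := by
  intro n
  induction n using Nat.strong_induction_on with
  | _ n ih =>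
  intro X _ _ hcard T hTn hT2 y x hyodd hx2 hxy hy3 hnt
  haveI : Fact (Nat.Prime 2) := ⟨Nat.prime_two⟩
  have hTne : T ≠ ⊥ := by
    rintro rfl
    obtain ⟨t, ht, hne⟩ := hnt
    rw [Subgroup.mem_bot] at ht
    subst ht
    simp at hne
  let A : Subgroup X :=
    { carrier := {a | a ∈ T ∧ a * a = 1 ∧ ∀ t ∈ T, a * t = t * a}
      mul_mem' := by
        rintro a b ⟨haT, ha2, hac⟩ ⟨hbT, hb2, hbc⟩
        refine ⟨T.mul_mem haT hbT, ?_, ?_⟩
        · have hab : a * b = b * a := hac b hbT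
          calc a * b * (a * b) = a * (b * a) * b := by group
            _ = a * (a * b) * b := by rw [hab]
            _ = (a * a) * (b * b) := by group
            _ = 1 := by rw [ha2, hb2, one_mul]
        · intro t ht
          calc a * b * t = a * (b * t) := by group
            _ = a * (t * b) := by rw [hbc t ht]
            _ = (a * t) * b := by group
            _ = t * a * b := by rw [hac t ht]
            _ = t * (a * b) := by group
      one_mem' := ⟨T.one_mem, one_mul 1, fun t _ => by simp⟩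
      inv_mem' := by
        rintro a ⟨haT, ha2, hac⟩
        have hai : a⁻¹ = a := inv_eq_of_mul_eq_one_right ha2
        show a⁻¹ ∈ T ∧ a⁻¹ * a⁻¹ = 1 ∧ ∀ t ∈ T, a⁻¹ * t = t * a⁻¹
        rw [hai]
        exact ⟨haT, ha2, hac⟩ }
  have hAT : A ≤ T := fun a ha => ha.1
  have hAn : A.Normal := by
    constructor
    intro a ha g
    obtain ⟨haT, ha2, hac⟩ := ha
    refine ⟨hTn.conj_mem a haT g, ?_, ?_⟩
    · calc (g * a * g⁻¹) * (g * a * g⁻¹) = g * (a * a) * g⁻¹ := by group
        _ = 1 := by rw [ha2]; group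
    · intro t ht
      have h1 : g⁻¹ * t * g ∈ T := by
        have := hTn.conj_mem t ht g⁻¹
        simpa using this
      have h2 := hac _ h1
      calc g * a * g⁻¹ * t = g * (a * (g⁻¹ * t * g)) * g⁻¹ := by group
        _ = g * ((g⁻¹ * t * g) * a) * g⁻¹ := by rw [h2]
        _ = t * (g * a * g⁻¹) := by group
  have hAne : A ≠ ⊥ := by
    obtain ⟨a, haT, ha1, ha2, hac⟩ := exists_central_invol T hT2 hTne
    intro h
    have hmem : a ∈ A := ⟨haT, by rw [← pow_two]; exact ha2, hac⟩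
    rw [h, Subgroup.mem_bot] at hmem
    exact ha1 hmem
  have hAcomm : ∀ a ∈ A, ∀ b ∈ A, a * b = b * a := fun a ha b hb => ha.2.2 b hb.1
  have hAsq : ∀ a ∈ A, a * a = 1 := fun a ha => ha.2.1
  have hAinv : ∀ a ∈ A, a⁻¹ = a := fun a ha => inv_eq_of_mul_eq_one_right (hAsq a ha)
  by_cases hyA : ∀ a ∈ A, y * a = a * y
  · haveI := hAn
    apply involves_of_quotient A
    have hlt : Nat.card (X ⧸ A) < n := by
      have h1 := Subgroup.card_eq_card_quotient_mul_card_subgroup A
      have h2 : 1 < Nat.card A := (Subgroup.one_lt_card_iff_ne_bot A).mpr hAne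
      have h3 : 0 < Nat.card (X ⧸ A) := Nat.card_pos
      rw [← hcard, h1]
      nlinarith
    refine ih _ hlt (X ⧸ A) rfl (T.map (QuotientGroup.mk' A))
      (hTn.map _ (QuotientGroup.mk'_surjective A)) (hT2.map _) (QuotientGroup.mk' A y)
      (QuotientGroup.mk' A x) ?_ ?_ ?_ ?_ ?_
    · exact Odd.of_dvd_nat hyodd (orderOf_map_dvd _ y)
    · obtain ⟨k, hk⟩ := hx2
      exact ⟨k, by rw [← map_pow, hk, map_one]⟩
    · have := congrArg (QuotientGroup.mk' A) hxy
      rw [map_mul, map_mul, map_inv, map_inv] at this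
      exact this
    · rintro _ ⟨t, ht, rfl⟩
      simp only [← map_mul]
      rw [hy3 t ht]
    · by_contra hall
      push Not at hall
      obtain ⟨t, ht, hne⟩ := hnt
      apply hne
      have h1 := hall _ (Subgroup.mem_map_of_mem (QuotientGroup.mk' A) ht)
      rw [← map_mul, ← map_mul] at h1
      have h2 : (y * t)⁻¹ * (t * y) ∈ A := QuotientGroup.eq.mp h1
      obtain ⟨d, hd⟩ : ∃ d : X, d = (y * t)⁻¹ * (t * y) := ⟨_, rfl⟩
      rw [← hd] at h2
      have hdy : y * d = d * y := hyA d h2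
      have hd2 : d * d = 1 := h2.2.1
      have e1 : t * y = y * t * d := by rw [hd]; group
      have hy2 : (y * y) * t = t * (y * y) := by
        calc (y * y) * t = (y * y) * t * (d * d) := by rw [hd2, mul_one]
          _ = y * (y * t * d) * d := by group
          _ = y * (t * y) * d := by rw [← e1]
          _ = y * t * (y * d) := by group
          _ = y * t * (d * y) := by rw [hdy]
          _ = (y * t * d) * y := by group
          _ = t * y * y := by rw [← e1]
          _ = t * (y * y) := by group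
      obtain ⟨j, hj⟩ := hyodd
      have hyj : (y * y) ^ (j + 1) = y := by
        rw [← pow_two, ← pow_mul]
        have h3 : 2 * (j + 1) = orderOf y + 1 := by omega
        rw [h3, pow_succ, pow_orderOf_eq_one, one_mul]
      have hc : Commute ((y * y)) t := hy2
      have hc2 : Commute ((y * y) ^ (j + 1)) t := hc.pow_left _
      rw [hyj] at hc2
      exact hc2.eq
  · push Not at hyA
    obtain ⟨a, haA, hya⟩ := hyA
    have hxy' : x * y = y⁻¹ * x := by rw [← hxy]; group
    have hyx : y * x = x * y⁻¹ := by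
      calc y * x = y * (x * y) * y⁻¹ := by group
        _ = y * (y⁻¹ * x) * y⁻¹ := by rw [hxy']
        _ = x * y⁻¹ := by group
    let B : Subgroup X :=
      { carrier := {b | b ∈ A ∧ b * (y * b * y⁻¹) * ((y * y) * b * (y * y)⁻¹) = 1}
        mul_mem' := by
          rintro b c ⟨hbA, hb⟩ ⟨hcA, hc⟩
          refine ⟨A.mul_mem hbA hcA, ?_⟩
          have hb1 : y * b * y⁻¹ ∈ A := hAn.conj_mem b hbA y
          have hb2 : (y * y) * b * (y * y)⁻¹ ∈ A := hAn.conj_mem b hbA ((y * y))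
          have hc1 : y * c * y⁻¹ ∈ A := hAn.conj_mem c hcA y
          have k1 : y * (b * c) * y⁻¹ = (y * b * y⁻¹) * (y * c * y⁻¹) := by group
          have k2 : (y * y) * (b * c) * (y * y)⁻¹ =
              ((y * y) * b * (y * y)⁻¹) * ((y * y) * c * (y * y)⁻¹) := by group
          rw [k1, k2, norm_mul_aux _ _ _ _ _ _ (hAcomm _ hcA _ hb1) (hAcomm _ hc1 _ hb2)
            (hAcomm _ hcA _ hb2), hb, hc, one_mul]
        one_mem' := ⟨A.one_mem, by group⟩
        inv_mem' := by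
          rintro b ⟨hbA, hb⟩
          show b⁻¹ ∈ A ∧ b⁻¹ * (y * b⁻¹ * y⁻¹) * ((y * y) * b⁻¹ * (y * y)⁻¹) = 1
          rw [hAinv b hbA]
          exact ⟨hbA, hb⟩ }
    have hxB : ∀ b ∈ B, x * b * x⁻¹ ∈ B := by
      rintro b ⟨hbA, hb⟩
      refine ⟨hAn.conj_mem b hbA x, ?_⟩
      have hb3 : (y * y * y) * b = b * (y * y * y) := hy3 b (hAT hbA)
      have e1 : y * (x * b * x⁻¹) * y⁻¹ = x * ((y * y) * b * (y * y)⁻¹) * x⁻¹ := by
        calc y * (x * b * x⁻¹) * y⁻¹ = (y * x) * b * (y * x)⁻¹ := by group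
          _ = (x * y⁻¹) * b * (x * y⁻¹)⁻¹ := by rw [hyx]
          _ = x * (y⁻¹ * b * y) * x⁻¹ := by group
          _ = x * ((y * y) * b * (y * y)⁻¹) * x⁻¹ := by rw [conj_aux1 y b hb3]
      have hy2x : (y * y) * x = x * (y * y)⁻¹ := by
        calc (y * y) * x = y * (y * x) := by group
          _ = y * (x * y⁻¹) := by rw [hyx]
          _ = (y * x) * y⁻¹ := by group
          _ = x * y⁻¹ * y⁻¹ := by rw [hyx]
          _ = x * (y * y)⁻¹ := by group
      have e2 : (y * y) * (x * b * x⁻¹) * (y * y)⁻¹ = x * (y * b * y⁻¹) * x⁻¹ := by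
        calc (y * y) * (x * b * x⁻¹) * (y * y)⁻¹ = ((y * y) * x) * b * ((y * y) * x)⁻¹ := by group
          _ = (x * (y * y)⁻¹) * b * (x * (y * y)⁻¹)⁻¹ := by rw [hy2x]
          _ = x * ((y * y)⁻¹ * b * (y * y)) * x⁻¹ := by simp [mul_assoc]
          _ = x * (y * b * y⁻¹) * x⁻¹ := by rw [conj_aux2 y b hb3]
      have hb1 : y * b * y⁻¹ ∈ A := hAn.conj_mem b hbA y
      have hb2 : (y * y) * b * (y * y)⁻¹ ∈ A := hAn.conj_mem b hbA ((y * y))
      have e3 : ((y * y) * b * (y * y)⁻¹) * (y * b * y⁻¹) =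
          (y * b * y⁻¹) * ((y * y) * b * (y * y)⁻¹) := hAcomm _ hb2 _ hb1
      rw [e1, e2]
      calc x * b * x⁻¹ * (x * ((y * y) * b * (y * y)⁻¹) * x⁻¹) * (x * (y * b * y⁻¹) * x⁻¹)
          = x * (b * (((y * y) * b * (y * y)⁻¹) * (y * b * y⁻¹))) * x⁻¹ := by group
        _ = x * (b * (y * b * y⁻¹) * ((y * y) * b * (y * y)⁻¹)) * x⁻¹ := by rw [e3]; group
        _ = 1 := by rw [hb]; group
    have hxN : x ∈ Subgroup.normalizer (B : Set X) := mem_normalizer_of_conj hxB
    have hzB : ∀ z ∈ Subgroup.zpowers x, ∀ b ∈ B, z * b * z⁻¹ ∈ B := fun z hz b hb =>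
      (Subgroup.mem_normalizer_iff.mp ((Subgroup.zpowers_le.mpr hxN) hz) b).mp hb
    letI act : MulAction (Subgroup.zpowers x) B :=
      { smul := fun z b => ⟨(z : X) * b * (z : X)⁻¹, hzB z z.2 b b.2⟩
        one_smul := fun b => Subtype.ext (by
          show ((1 : Subgroup.zpowers x) : X) * (b : X) * ((1 : Subgroup.zpowers x) : X)⁻¹ = b
          simp)
        mul_smul := fun z w b => Subtype.ext (by
          show ((z * w : Subgroup.zpowers x) : X) * (b : X) *
            ((z * w : Subgroup.zpowers x) : X)⁻¹ = (z : X) * ((w : X) * b * (w : X)⁻¹) * (z : X)⁻¹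
          rw [Subgroup.coe_mul]; group) }
    have hZ2 : IsPGroup 2 (Subgroup.zpowers x) := by
      obtain ⟨k, hk⟩ := hx2
      rintro ⟨z, hz⟩
      obtain ⟨i, rfl⟩ := Subgroup.mem_zpowers_iff.mp hz
      refine ⟨k, Subtype.ext ?_⟩
      show (x ^ i) ^ 2 ^ k = 1
      rw [← zpow_natCast, ← zpow_mul, mul_comm, zpow_mul, zpow_natCast, hk, one_zpow]
    have hBne : B ≠ ⊥ := by
      have ha3 : (y * y * y) * a = a * (y * y * y) := hy3 a (hAT haA)
      have hbB : a⁻¹ * (y * a * y⁻¹) ∈ B := by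
        refine ⟨A.mul_mem (A.inv_mem haA) (hAn.conj_mem a haA y), ?_⟩
        calc a⁻¹ * (y * a * y⁻¹) * (y * (a⁻¹ * (y * a * y⁻¹)) * y⁻¹) *
              ((y * y) * (a⁻¹ * (y * a * y⁻¹)) * (y * y)⁻¹)
            = a⁻¹ * (((y * y * y) * a) * (y * y * y)⁻¹) := by group
          _ = a⁻¹ * ((a * (y * y * y)) * (y * y * y)⁻¹) := by rw [ha3]
          _ = 1 := by group
      intro h
      rw [h, Subgroup.mem_bot] at hbB
      apply hya
      have h4 : y * a * y⁻¹ = a := by
        calc y * a * y⁻¹ = a * (a⁻¹ * (y * a * y⁻¹)) := by group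
          _ = a := by rw [hbB, mul_one]
      calc y * a = (y * a * y⁻¹) * y := by group
        _ = a * y := by rw [h4]
    have hB2 : IsPGroup 2 B := by
      rintro ⟨b, hb⟩
      refine ⟨1, Subtype.ext ?_⟩
      show b ^ 2 ^ 1 = 1
      rw [pow_one, pow_two]; exact hb.1.2.1
    have hdvd : 2 ∣ Nat.card B := by
      rcases hB2.card_eq_or_dvd with h | h
      · exact absurd h ((Subgroup.one_lt_card_iff_ne_bot B).mpr hBne).ne'
      · exact h
    have hfix1 : (1 : B) ∈ MulAction.fixedPoints (Subgroup.zpowers x) B := by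
      intro z
      apply Subtype.ext
      show (z : X) * ((1 : B) : X) * (z : X)⁻¹ = ((1 : B) : X)
      simp
    obtain ⟨v', hv'fix, hv'ne⟩ :=
      hZ2.exists_fixed_point_of_prime_dvd_card_of_fixed_point B hdvd hfix1
    obtain ⟨v, hv⟩ : ∃ v : X, v = (v' : X) := ⟨_, rfl⟩
    have hvB : v ∈ B := hv ▸ v'.2
    have hv1 : v ≠ 1 := fun h => hv'ne (Subtype.ext (by rw [← hv, h]; rfl))
    have hxv : x * v * x⁻¹ = v := by
      have h5 := MulAction.mem_fixedPoints.mp hv'fix ⟨x, Subgroup.mem_zpowers x⟩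
      rw [hv]
      exact congrArg Subtype.val h5
    have hvA : v ∈ A := hvB.1
    have hv3 : (y * y * y) * v = v * (y * y * y) := hy3 v (hAT hvA)
    obtain ⟨v₁, hv1def⟩ : ∃ v₁ : X, v₁ = y * v * y⁻¹ := ⟨_, rfl⟩
    obtain ⟨v₂, hv2def⟩ : ∃ v₂ : X, v₂ = (y * y) * v * (y * y)⁻¹ := ⟨_, rfl⟩
    have hN : v * v₁ * v₂ = 1 := by rw [hv1def, hv2def]; exact hvB.2
    have hv1A : v₁ ∈ A := hv1def ▸ hAn.conj_mem v hvA y
    have hv2A : v₂ ∈ A := hv2def ▸ hAn.conj_mem v hvA ((y * y))
    have hyv1 : y * v₁ * y⁻¹ = v₂ := by rw [hv1def, hv2def]; group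
    have hyv2 : y * v₂ * y⁻¹ = v := by
      rw [hv2def]
      calc y * ((y * y) * v * (y * y)⁻¹) * y⁻¹ = ((y * y * y) * v) * (y * y * y)⁻¹ := by group
        _ = (v * (y * y * y)) * (y * y * y)⁻¹ := by rw [hv3]
        _ = v := by group
    have h0 : v * v = 1 := hAsq v hvA
    have h1 : v₁ * v₁ = 1 := hAsq v₁ hv1A
    have h2 : v₂ * v₂ = 1 := hAsq v₂ hv2A
    have h01 : v * v₁ = v₂ := by
      calc v * v₁ = (v * v₁ * v₂) * v₂⁻¹ := by group
        _ = v₂ := by rw [hN, one_mul, hAinv v₂ hv2A]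
    have h10 : v₁ * v = v₂ := by rw [hAcomm v₁ hv1A v hvA]; exact h01
    have h02 : v * v₂ = v₁ := by
      calc v * v₂ = v * (v * v₁) := by rw [h01]
        _ = (v * v) * v₁ := by group
        _ = v₁ := by rw [h0, one_mul]
    have h20 : v₂ * v = v₁ := by rw [hAcomm v₂ hv2A v hvA]; exact h02
    have h12 : v₁ * v₂ = v := by
      calc v₁ * v₂ = v₁ * (v₁ * v) := by rw [h10]
        _ = (v₁ * v₁) * v := by group
        _ = v := by rw [h1, one_mul]
    have h21 : v₂ * v₁ = v := by rw [hAcomm v₂ hv2A v₁ hv1A]; exact h12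
    have d01 : v ≠ v₁ := by
      intro h
      have h6 : v₂ = v := by rw [← hyv1, ← h, ← hv1def, ← h]
      rw [← h, h6, h0, one_mul] at hN
      exact hv1 hN
    have d12 : v₁ ≠ v₂ := by
      intro h
      apply d01
      have h7 : y * v * y⁻¹ = y * v₁ * y⁻¹ := by rw [← hv1def, hyv1]; exact h
      exact mul_left_cancel (mul_right_cancel h7)
    have d02 : v ≠ v₂ := by
      intro h
      apply d01
      rw [hv1def]
      nth_rewrite 2 [h]
      exact hyv2.symm
    have d1 : v₁ ≠ 1 := by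
      intro h
      rw [hv1def, conj_eq_one_iff] at h
      exact hv1 h
    have d2 : v₂ ≠ 1 := by
      intro h
      rw [hv2def, conj_eq_one_iff] at h
      exact hv1 h
    obtain ⟨U, hU, hU4⟩ := four_subgroup v v₁ v₂ h0 h1 h2 h01 h10 h02 h20 h12 h21 hv1 d1 d2
      d01 d02 d12
    have hUA : ∀ u ∈ U, u ∈ A := by
      intro u hu
      rcases (hU u).mp hu with h | h | h | h
      · rw [h]; exact A.one_mem
      · rw [h]; exact hvA
      · rw [h]; exact hv1A
      · rw [h]; exact hv2A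
    have hxv1 : x * v₁ * x⁻¹ = v₂ := by
      rw [hv1def, hv2def]
      calc x * (y * v * y⁻¹) * x⁻¹ = (x * y) * v * (x * y)⁻¹ := by group
        _ = (y⁻¹ * x) * v * (y⁻¹ * x)⁻¹ := by rw [hxy']
        _ = y⁻¹ * (x * v * x⁻¹) * y := by group
        _ = y⁻¹ * v * y := by rw [hxv]
        _ = (y * y) * v * (y * y)⁻¹ := conj_aux1 y v hv3
    have hxy2 : x * (y * y) = (y * y)⁻¹ * x := by
      calc x * (y * y) = (x * y) * y := by group
        _ = (y⁻¹ * x) * y := by rw [hxy']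
        _ = y⁻¹ * (x * y) := by group
        _ = y⁻¹ * (y⁻¹ * x) := by rw [hxy']
        _ = (y * y)⁻¹ * x := by group
    have hxv2 : x * v₂ * x⁻¹ = v₁ := by
      rw [hv1def, hv2def]
      calc x * ((y * y) * v * (y * y)⁻¹) * x⁻¹ = (x * (y * y)) * v * (x * (y * y))⁻¹ := by group
        _ = ((y * y)⁻¹ * x) * v * ((y * y)⁻¹ * x)⁻¹ := by rw [hxy2]
        _ = (y * y)⁻¹ * (x * v * x⁻¹) * (y * y) := by simp [mul_assoc]
        _ = (y * y)⁻¹ * v * (y * y) := by rw [hxv]
        _ = y * v * y⁻¹ := conj_aux2 y v hv3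
    have hyU : y ∈ Subgroup.normalizer (U : Set X) := by
      apply mem_normalizer_of_conj
      intro u hu
      rw [hU] at hu ⊢
      rcases hu with h | h | h | h
      · left; rw [h]; group
      · right; right; left; rw [h]; exact hv1def.symm
      · right; right; right; rw [h]; exact hyv1
      · right; left; rw [h]; exact hyv2
    have hxU : x ∈ Subgroup.normalizer (U : Set X) := by
      apply mem_normalizer_of_conj
      intro u hu
      rw [hU] at hu ⊢
      rcases hu with h | h | h | h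
      · left; rw [h]; group
      · right; left; rw [h]; exact hxv
      · right; right; right; rw [h]; exact hxv1
      · right; right; left; rw [h]; exact hxv2
    have hyfpf : ∀ u ∈ U, y * u * y⁻¹ = u → u = 1 := by
      intro u hu huy
      rcases (hU u).mp hu with h | h | h | h
      · exact h
      · rw [h, ← hv1def] at huy; exact absurd huy.symm d01
      · rw [h, hyv1] at huy; exact absurd huy.symm d12
      · rw [h, hyv2] at huy; exact absurd huy d02
    have hxyN : x ∈ Subgroup.normalizer ((Subgroup.zpowers y : Subgroup X) : Set X) := by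
      apply mem_normalizer_of_conj
      intro h hh
      obtain ⟨i, rfl⟩ := Subgroup.mem_zpowers_iff.mp hh
      rw [← conj_zpow, hxy]
      exact Subgroup.zpow_mem _ (Subgroup.inv_mem _ (Subgroup.mem_zpowers y)) i
    exact involves_s4 U hU4 (fun a ha b hb => hAcomm a (hUA a ha) b (hUA b hb)) y x hyU hxU
      hyodd hyfpf hxyN hx2
      ⟨v₁, (hU v₁).mpr (Or.inr (Or.inr (Or.inl rfl))), by rw [hxv1]; exact d12.symm⟩

end Cfsg.Agent.Lib.Helper1.S4Sec
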