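import Mathlib

set_option autoImplicit false
set_option linter.style.haveILetI false

/-! A group mapping onto the symmetric group of degree three contains a `3`-element with
nontrivial image which is inverted by a `2`-element. -/

namespace Cfsg.Agent.Lib.Helper1.S4Sec

universe u

theorem s3_cube : ∀ τ : Equiv.Perm (Fin 3), Equiv.Perm.sign τ = 1 → τ ^ 3 = 1 := by decide

theorem s3_invert : ∀ σ τ : Equiv.Perm (Fin 3), Equiv.Perm.sign σ = -1 → Equiv.Perm.sign τ = 1 →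
    σ * τ * σ⁻¹ = τ⁻¹ := by decide

theorem s3_commute : ∀ σ τ : Equiv.Perm (Fin 3), Equiv.Perm.sign σ = 1 → Equiv.Perm.sign τ = 1 →
    σ * τ * σ⁻¹ = τ := by decide

theorem s3_even : ∃ τ : Equiv.Perm (Fin 3), Equiv.Perm.sign τ = 1 ∧ τ ≠ 1 := by decide

theorem s3_odd : ∃ σ : Equiv.Perm (Fin 3), Equiv.Perm.sign σ = -1 := by decide

/-- The elements of a subgroup with prescribed image. -/
abbrev FibT (L : Type u) [Group L] (P' : Subgroup L) (φ : L →* Equiv.Perm (Fin 3))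
    (τ : Equiv.Perm (Fin 3)) : Type u := {u : L // u ∈ P' ∧ φ u = τ}

set_option maxHeartbeats 1600000 in
theorem exists_inverted (L : Type u) [Group L] [Finite L] (φ : L →* Equiv.Perm (Fin 3))
    (hφ : Function.Surjective φ) :
    ∃ y s : L, (∃ n : ℕ, y ^ (3 ^ n) = 1) ∧ (∃ k : ℕ, s ^ (2 ^ k) = 1) ∧
      s * y * s⁻¹ = y⁻¹ ∧ φ y ≠ 1 := by
  classical
  haveI : Fact (Nat.Prime 2) := ⟨Nat.prime_two⟩
  haveI : Fact (Nat.Prime 3) := ⟨Nat.prime_three⟩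
  obtain ⟨sgn, hsgndef⟩ : ∃ sgn : L →* ℤˣ, sgn = Equiv.Perm.sign.comp φ := ⟨_, rfl⟩
  obtain ⟨M, hM⟩ : ∃ M : Subgroup L, M = sgn.ker := ⟨_, rfl⟩
  haveI hMn : M.Normal := by rw [hM]; infer_instance
  have hmemM : ∀ g, g ∈ M ↔ Equiv.Perm.sign (φ g) = 1 := by
    intro g; rw [hM, MonoidHom.mem_ker, hsgndef]; rfl
  obtain ⟨τ₀, hτ₀s, hτ₀1⟩ := s3_even
  obtain ⟨a, ha⟩ := hφ τ₀
  obtain ⟨e, m, hm3, hord⟩ :=
    Nat.exists_eq_pow_mul_and_not_dvd (orderOf_pos a).ne' 3 (by norm_num)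
  have ha₀3 : (a ^ m) ^ 3 ^ e = 1 := by
    rw [← pow_mul, mul_comm, ← hord, pow_orderOf_eq_one]
  have hτ₀3 : τ₀ ^ 3 = 1 := s3_cube τ₀ hτ₀s
  have hτ₀ord : orderOf τ₀ = 3 := orderOf_eq_prime hτ₀3 hτ₀1
  have ha₀φ : φ (a ^ m) ≠ 1 := by
    rw [map_pow, ha]
    intro h
    have h1 := orderOf_dvd_of_pow_eq_one h
    rw [hτ₀ord] at h1
    exact hm3 h1
  have ha₀M : a ^ m ∈ M := by
    rw [hmemM, map_pow, ha, map_pow, hτ₀s, one_pow]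
  have hZ3 : IsPGroup 3 (Subgroup.zpowers (⟨a ^ m, ha₀M⟩ : M)) := by
    have h0 : (⟨a ^ m, ha₀M⟩ : M) ^ 3 ^ e = 1 := Subtype.ext ha₀3
    rintro ⟨z, hz⟩
    obtain ⟨i, rfl⟩ := Subgroup.mem_zpowers_iff.mp hz
    refine ⟨e, Subtype.ext ?_⟩
    show ((⟨a ^ m, ha₀M⟩ : M) ^ i) ^ 3 ^ e = 1
    rw [← zpow_natCast, ← zpow_mul, mul_comm, zpow_mul, zpow_natCast, h0, one_zpow]
  obtain ⟨P, hP⟩ := hZ3.exists_le_sylow
  obtain ⟨P', hP'⟩ : ∃ P' : Subgroup L, P' = (P : Subgroup M).map M.subtype := ⟨_, rfl⟩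
  have ha₀P' : a ^ m ∈ P' := by
    rw [hP']
    exact ⟨⟨a ^ m, ha₀M⟩, hP (Subgroup.mem_zpowers _), rfl⟩
  have hP'3 : ∀ u ∈ P', ∃ n : ℕ, u ^ 3 ^ n = 1 := by
    intro u hu
    rw [hP'] at hu
    obtain ⟨p, hp, rfl⟩ := hu
    obtain ⟨n, hn⟩ := P.2 ⟨p, hp⟩
    refine ⟨n, ?_⟩
    have h1 : p ^ 3 ^ n = 1 := congrArg Subtype.val hn
    have h2 := congrArg Subtype.val h1
    simpa using h2
  have hFr : Subgroup.normalizer (P' : Set L) ⊔ M = ⊤ := by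
    rw [hP']; exact Sylow.normalizer_sup_eq_top P
  obtain ⟨σ₀, hσ₀⟩ := s3_odd
  obtain ⟨b, hb⟩ := hφ σ₀
  have hbM : b ∉ M := by
    rw [hmemM, hb, hσ₀]; decide
  obtain ⟨g, hgN, hgM⟩ : ∃ g ∈ Subgroup.normalizer (P' : Set L), g ∉ M := by
    by_contra hcon
    push Not at hcon
    have hle : Subgroup.normalizer (P' : Set L) ≤ M := hcon
    rw [sup_eq_right.mpr hle] at hFr
    exact hbM (hFr ▸ Subgroup.mem_top b)
  have hgs : Equiv.Perm.sign (φ g) = -1 := by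
    rcases Int.units_eq_one_or (Equiv.Perm.sign (φ g)) with h | h
    · exact absurd ((hmemM g).mpr h) hgM
    · exact h
  obtain ⟨k, m2, hm2, hord2⟩ := Nat.exists_eq_two_pow_mul_odd (orderOf_pos g).ne'
  obtain ⟨s, hsdef⟩ : ∃ s : L, s = g ^ m2 := ⟨_, rfl⟩
  have hs2 : s ^ 2 ^ k = 1 := by
    rw [hsdef, ← pow_mul, mul_comm, ← hord2, pow_orderOf_eq_one]
  have hsN : s ∈ Subgroup.normalizer (P' : Set L) := hsdef ▸ Subgroup.pow_mem _ hgN m2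
  have hss : Equiv.Perm.sign (φ s) = -1 := by
    rw [hsdef, map_pow, map_pow, hgs, Odd.neg_one_pow hm2]
  have hs2s : Equiv.Perm.sign (φ (s ^ 2)) = 1 := by
    rw [map_pow, map_pow, hss, neg_one_sq]
  obtain ⟨τ, hτdef⟩ : ∃ τ : Equiv.Perm (Fin 3), τ = φ (a ^ m) := ⟨_, rfl⟩
  have hτ1 : τ ≠ 1 := hτdef ▸ ha₀φ
  have hτs : Equiv.Perm.sign τ = 1 := hτdef ▸ (hmemM _).mp ha₀M
  have hzs : ∀ z ∈ Subgroup.zpowers (s ^ 2), Equiv.Perm.sign (φ z) = 1 := by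
    intro z hz
    obtain ⟨i, rfl⟩ := Subgroup.mem_zpowers_iff.mp hz
    rw [map_zpow, map_zpow, hs2s, one_zpow]
  have hzN : ∀ z ∈ Subgroup.zpowers (s ^ 2), z ∈ Subgroup.normalizer (P' : Set L) := by
    intro z hz
    exact (Subgroup.zpowers_le.mpr (Subgroup.pow_mem _ hsN 2)) hz
  have hzΩ : ∀ z ∈ Subgroup.zpowers (s ^ 2), ∀ u : L, u ∈ P' ∧ φ u = τ →
      z * u * z⁻¹ ∈ P' ∧ φ (z * u * z⁻¹) = τ := by
    intro z hz u hu
    refine ⟨(Subgroup.mem_normalizer_iff.mp (hzN z hz) u).mp hu.1, ?_⟩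
    rw [map_mul, map_mul, map_inv, hu.2]
    exact s3_commute _ _ (hzs z hz) hτs
  letI act : MulAction (Subgroup.zpowers (s ^ 2)) (FibT L P' φ τ) :=
    { smul := fun z u => ⟨(z : L) * u.1 * (z : L)⁻¹, hzΩ z z.2 u.1 u.2⟩
      one_smul := fun u => Subtype.ext (by
        show ((1 : Subgroup.zpowers (s ^ 2)) : L) * u.1 *
          ((1 : Subgroup.zpowers (s ^ 2)) : L)⁻¹ = u.1
        simp)
      mul_smul := fun z w u => Subtype.ext (by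
        show ((z * w : Subgroup.zpowers (s ^ 2)) : L) * u.1 *
          ((z * w : Subgroup.zpowers (s ^ 2)) : L)⁻¹ =
          (z : L) * ((w : L) * u.1 * (w : L)⁻¹) * (z : L)⁻¹
        rw [Subgroup.coe_mul]; group) }
  have hZ2 : IsPGroup 2 (Subgroup.zpowers (s ^ 2)) := by
    rintro ⟨z, hz⟩
    obtain ⟨i, rfl⟩ := Subgroup.mem_zpowers_iff.mp hz
    refine ⟨k, Subtype.ext ?_⟩
    show ((s ^ 2) ^ i) ^ 2 ^ k = 1
    have h1 : (s ^ 2) ^ 2 ^ k = 1 := by rw [← pow_mul, mul_comm, pow_mul, hs2, one_pow]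
    rw [← zpow_natCast, ← zpow_mul, mul_comm, zpow_mul, zpow_natCast, h1, one_zpow]
  have hcard : ¬ 2 ∣ Nat.card (FibT L P' φ τ) := by
    have e : FibT L P' φ τ ≃ (P' ⊓ φ.ker : Subgroup L) :=
      { toFun := fun u => ⟨(a ^ m)⁻¹ * u.1, Subgroup.mem_inf.mpr
          ⟨P'.mul_mem (P'.inv_mem ha₀P') u.2.1, by
            rw [MonoidHom.mem_ker, map_mul, map_inv, u.2.2, ← hτdef, inv_mul_cancel]⟩⟩
        invFun := fun d => ⟨a ^ m * d.1, P'.mul_mem ha₀P' (Subgroup.mem_inf.mp d.2).1, by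
          rw [map_mul, ← hτdef, MonoidHom.mem_ker.mp (Subgroup.mem_inf.mp d.2).2, mul_one]⟩
        left_inv := fun u => Subtype.ext (by simp)
        right_inv := fun d => Subtype.ext (by simp) }
    rw [Nat.card_congr e]
    have h3 : IsPGroup 3 (P' ⊓ φ.ker : Subgroup L) := by
      rintro ⟨d, hd⟩
      obtain ⟨n, hn⟩ := hP'3 d (Subgroup.mem_inf.mp hd).1
      exact ⟨n, Subtype.ext hn⟩
    obtain ⟨j, hj⟩ := h3.exists_card_eq
    rw [hj]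
    intro h2
    have h4 := Nat.Prime.dvd_of_dvd_pow Nat.prime_two h2
    omega
  obtain ⟨a', ha'⟩ := hZ2.nonempty_fixed_point_of_prime_not_dvd_card (FibT L P' φ τ) hcard
  obtain ⟨a1, ha1def⟩ : ∃ a1 : L, a1 = a'.1 := ⟨_, rfl⟩
  have ha'fix : s ^ 2 * a1 * (s ^ 2)⁻¹ = a1 := by
    have h5 := MulAction.mem_fixedPoints.mp ha' ⟨s ^ 2, Subgroup.mem_zpowers _⟩
    rw [ha1def]
    exact congrArg Subtype.val h5
  have ha1P : a1 ∈ P' := ha1def ▸ a'.2.1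
  have ha1φ : φ a1 = τ := ha1def ▸ a'.2.2
  refine ⟨a1⁻¹ * (s * a1 * s⁻¹), s, ?_, ⟨k, hs2⟩, ?_, ?_⟩
  · apply hP'3
    exact P'.mul_mem (P'.inv_mem ha1P) ((Subgroup.mem_normalizer_iff.mp hsN a1).mp ha1P)
  · calc s * (a1⁻¹ * (s * a1 * s⁻¹)) * s⁻¹
        = (s * a1 * s⁻¹)⁻¹ * (s ^ 2 * a1 * (s ^ 2)⁻¹) := by group
      _ = (s * a1 * s⁻¹)⁻¹ * a1 := by rw [ha'fix]
      _ = (a1⁻¹ * (s * a1 * s⁻¹))⁻¹ := by group
  · rw [map_mul, map_inv, map_mul, map_mul, map_inv, ha1φ, s3_invert _ _ hss hτs]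
    intro h
    apply hτ1
    have h3 := s3_cube τ hτs
    have h2 : τ ^ 2 = 1 := by
      have h6 : (τ ^ 2)⁻¹ = 1 := by rw [← h]; group
      exact inv_eq_one.mp h6
    calc τ = τ ^ 3 * (τ ^ 2)⁻¹ := by group
      _ = 1 := by rw [h3, h2]; simp

end Cfsg.Agent.Lib.Helper1.S4Sec
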