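import Mathlib
import Cfsg.Prelude.Def_LocalEven
import Cfsg.Agent.Lib.Helper17.S4Rec

set_option autoImplicit false
set_option linter.style.haveILetI false

/-! The symmetric group of degree four as a section: the map onto the symmetric group of
degree three, and the passage to the automizer of a `2`-subgroup. -/

namespace Cfsg.Agent.Lib.Helper1.S4Sec

open Cfsg.Agent.Lib.Helper17

universe u v w

/-- Index of the pair-partition of four points containing the pair `{a, b}`. -/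
def pidx (a b : Fin 4) : Fin 3 := ![![0, 0, 1, 2], ![0, 0, 2, 1], ![1, 2, 0, 0], ![2, 1, 0, 0]] a b

/-- The action of a permutation of four points on the three pair-partitions. -/
def piFun (σ : Equiv.Perm (Fin 4)) (i : Fin 3) : Fin 3 := pidx (σ 0) (σ i.succ)

set_option maxRecDepth 100000 in
theorem piFun_mul : ∀ σ τ : Equiv.Perm (Fin 4), ∀ i : Fin 3,
    piFun (σ * τ) i = piFun σ (piFun τ i) := by decide +kernel

theorem piFun_one : ∀ i : Fin 3, piFun 1 i = i := by decide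

/-- The homomorphism from the symmetric group of degree four onto that of degree three. -/
def piHom : Equiv.Perm (Fin 4) →* Equiv.Perm (Fin 3) where
  toFun σ := ⟨piFun σ, piFun σ⁻¹, fun i => by rw [← piFun_mul, inv_mul_cancel, piFun_one],
    fun i => by rw [← piFun_mul, mul_inv_cancel, piFun_one]⟩
  map_one' := Equiv.ext piFun_one
  map_mul' σ τ := Equiv.ext (piFun_mul σ τ)

set_option maxRecDepth 100000 in
theorem piHom_surj : ∀ τ : Equiv.Perm (Fin 3), ∃ σ : Equiv.Perm (Fin 4), piHom σ = τ := by decide +kernel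

set_option maxRecDepth 100000 in
theorem pi_ker_sq : ∀ σ : Equiv.Perm (Fin 4), piHom σ = 1 → σ ^ 2 = 1 := by decide +kernel

set_option maxRecDepth 100000 in
theorem pi_cent : ∀ σ : Equiv.Perm (Fin 4),
    (∀ v : Equiv.Perm (Fin 4), piHom v = 1 → σ * v = v * σ) → piHom σ = 1 := by decide +kernel

theorem lemmaA (K : Type u) [Group K] [Finite K] (φ : K →* Equiv.Perm (Fin 4))
    (hφ : Function.Surjective φ) :
    ∃ T : Subgroup K, IsPGroup 2 T ∧
      (∀ τ : Equiv.Perm (Fin 3), ∃ n ∈ Subgroup.normalizer (T : Set K), piHom (φ n) = τ) ∧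
      (∀ n : K, (∀ t ∈ T, n * t = t * n) → piHom (φ n) = 1) := by
  classical
  haveI : Fact (Nat.Prime 2) := ⟨Nat.prime_two⟩
  obtain ⟨ψ, hψdef⟩ : ∃ ψ : K →* Equiv.Perm (Fin 3), ψ = piHom.comp φ := ⟨_, rfl⟩
  have hψa : ∀ k, ψ k = piHom (φ k) := fun k => by rw [hψdef]; rfl
  have hψ : Function.Surjective ψ := fun τ => by
    obtain ⟨σ, hσ⟩ := piHom_surj τ
    obtain ⟨k, hk⟩ := hφ σ
    exact ⟨k, by rw [hψa, hk, hσ]⟩
  obtain ⟨W, hW⟩ : ∃ W : Subgroup K, W = ψ.ker := ⟨_, rfl⟩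
  haveI : W.Normal := by rw [hW]; infer_instance
  have hmemW : ∀ k, k ∈ W ↔ piHom (φ k) = 1 := fun k => by rw [hW, MonoidHom.mem_ker, hψa]
  obtain ⟨P⟩ : Nonempty (Sylow 2 W) := inferInstance
  obtain ⟨T, hTdef⟩ : ∃ T : Subgroup K, T = (P : Subgroup W).map W.subtype := ⟨_, rfl⟩
  have hFr : Subgroup.normalizer (T : Set K) ⊔ W = ⊤ := by
    rw [hTdef]; exact Sylow.normalizer_sup_eq_top P
  let f : W →* piHom.ker := (φ.comp W.subtype).codRestrict piHom.ker (fun w => by
    rw [MonoidHom.mem_ker]; exact (hmemW w).mp w.2)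
  have hf : Function.Surjective f := by
    rintro ⟨v, hv⟩
    obtain ⟨k, hk⟩ := hφ v
    exact ⟨⟨k, (hmemW k).mpr (by rw [hk]; exact MonoidHom.mem_ker.mp hv)⟩, Subtype.ext hk⟩
  have hker2 : IsPGroup 2 (⊤ : Subgroup piHom.ker) := by
    rintro ⟨⟨v, hv⟩, _⟩
    refine ⟨1, Subtype.ext (Subtype.ext ?_)⟩
    show v ^ 2 ^ 1 = 1
    rw [pow_one]; exact pi_ker_sq v (MonoidHom.mem_ker.mp hv)
  have hQtop : ((P.mapSurjective hf : Sylow 2 piHom.ker) : Subgroup piHom.ker) = ⊤ :=
    ((P.mapSurjective hf).is_maximal' hker2 le_top).symm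
  rw [Sylow.coe_mapSurjective] at hQtop
  have hTsurj : ∀ v : Equiv.Perm (Fin 4), piHom v = 1 → ∃ t ∈ T, φ t = v := by
    intro v hv
    have hmem : (⟨v, MonoidHom.mem_ker.mpr hv⟩ : piHom.ker) ∈ (P : Subgroup W).map f := by
      rw [hQtop]; exact Subgroup.mem_top _
    obtain ⟨w, hw, hfw⟩ := hmem
    refine ⟨(w : K), ?_, congrArg Subtype.val hfw⟩
    rw [hTdef]; exact ⟨w, hw, rfl⟩
  refine ⟨T, ?_, ?_, ?_⟩
  · rw [hTdef]; exact P.2.map _
  · intro τ
    obtain ⟨k, hk⟩ := hψ τ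
    have hk' : k ∈ Subgroup.normalizer (T : Set K) ⊔ W := by rw [hFr]; exact Subgroup.mem_top k
    obtain ⟨n, hn, w, hw, rfl⟩ := Subgroup.mem_sup_of_normal_right.mp hk'
    refine ⟨n, hn, ?_⟩
    rw [hψa, map_mul, map_mul, (hmemW w).mp hw, mul_one] at hk
    exact hk
  · intro n hn
    apply pi_cent
    intro v hv
    obtain ⟨t, ht, rfl⟩ := hTsurj v hv
    rw [← map_mul, ← map_mul, hn t ht]

theorem lemmaB {G : Type u} [Group G] {H : Type v} [Group H] (T : Subgroup G) {K : Type w}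
    [Group K] (j : K →* G) (ψ : K →* H) (hψ : Function.Surjective ψ)
    (hj : ∀ k, j k ∈ Subgroup.normalizer (T : Set G))
    (hC : ∀ k, j k ∈ Subgroup.centralizer (T : Set G) → ψ k = 1) :
    Cfsg.Involves H (↥(Subgroup.normalizer (T : Set G)) ⧸
      (Subgroup.centralizer (T : Set G)).subgroupOf (Subgroup.normalizer (T : Set G))) := by
  obtain ⟨f, hfdef⟩ : ∃ f : K →* (↥(Subgroup.normalizer (T : Set G)) ⧸
      (Subgroup.centralizer (T : Set G)).subgroupOf (Subgroup.normalizer (T : Set G))),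
      f = (QuotientGroup.mk' _).comp (j.codRestrict (Subgroup.normalizer (T : Set G)) hj) :=
    ⟨_, rfl⟩
  have hker : f.rangeRestrict.ker ≤ ψ.ker := by
    intro k hk
    rw [MonoidHom.mem_ker] at hk ⊢
    have h1 : f k = 1 := by simpa using congrArg Subtype.val hk
    rw [hfdef, MonoidHom.comp_apply, QuotientGroup.mk'_apply, QuotientGroup.eq_one_iff] at h1
    exact hC k (Subgroup.mem_subgroupOf.mp h1)
  refine involves_of_surjective f.range
    (f.rangeRestrict.liftOfSurjective f.rangeRestrict_surjective ⟨ψ, hker⟩) ?_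
  intro h
  obtain ⟨k, rfl⟩ := hψ h
  exact ⟨f.rangeRestrict k, MonoidHom.liftOfRightInverse_comp_apply _ _ _ ⟨ψ, hker⟩ k⟩

end Cfsg.Agent.Lib.Helper1.S4Sec
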